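import Cfsg.Agent.Classical.PrimeDerangement.UnitaryPair.Elements
import Cfsg.Agent.Classical.PrimeDerangement.Orders

/-!
Fixed-point-free elements of prime order in small unitary groups, and the order of the stabiliser of an ordered pair.
-/

set_option autoImplicit false
set_option linter.unusedSectionVars false

namespace CfsgLib.Classical.PrimeDerangement.UnitaryPair

open Cfsg Matrix Module CfsgLib.Unitary

variable {F : Type*} [Field F] [Fintype F] {n m q k l : ℕ}

/-- An element of `GU_k` with no fixed vector, extended by the identity, fixes a space of dimension `n - k`. -/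
theorem finrank_fix_block (hF : Fintype.card F = q ^ 2) (h : k + l = n) (y : ↥(GU k F q))
    (hfpf : ∀ v : Fin k → F, ((y : GL (Fin k) F) : Matrix (Fin k) (Fin k) F) *ᵥ v = v → v = 0) :
    finrank F (fixSub (((blockGU hF h (y, 1)) : GL (Fin n) F) : Matrix (Fin n) (Fin n) F)) = l := by
  classical
  let Φ : (Fin l → F) →ₗ[F] (Fin n → F) :=
    { toFun := fun v i => Sum.elim (0 : Fin k → F) v ((blockIdx h).symm i)
      map_add' := fun a b => funext fun i => by rcases e : (blockIdx h).symm i <;> simp [e]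
      map_smul' := fun a b => funext fun i => by rcases e : (blockIdx h).symm i <;> simp [e] }
  have hΦ : Function.Injective Φ := fun a b hab => funext fun i => by
    simpa [Φ] using congrFun hab (blockIdx h (Sum.inr i))
  have key : ∀ v : Fin n → F, ∀ s,
      ((((blockGU hF h (y, 1)) : GL (Fin n) F) : Matrix (Fin n) (Fin n) F) *ᵥ v) (blockIdx h s) =
        Sum.elim (((y : GL (Fin k) F) : Matrix (Fin k) (Fin k) F) *ᵥ fun j => v (blockIdx h (Sum.inl j)))
          (fun j => v (blockIdx h (Sum.inr j))) s := by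
    intro v s
    rw [blockGU_val]
    show ((Matrix.reindexAlgEquiv F F (blockIdx h) (Matrix.fromBlocks
      ((y : GL (Fin k) F) : Matrix (Fin k) (Fin k) F) 0 0 1)) *ᵥ v) (blockIdx h s) = _
    rw [Matrix.reindexAlgEquiv_apply, Matrix.reindex_apply, Matrix.submatrix_mulVec_equiv, Function.comp_apply,
      Equiv.symm_apply_apply, Equiv.symm_symm, Matrix.fromBlocks_mulVec]
    rcases s with s | s <;> simp [Function.comp_def]
  have hrange : fixSub (((blockGU hF h (y, 1)) : GL (Fin n) F) : Matrix (Fin n) (Fin n) F) = LinearMap.range Φ := by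
    ext v
    rw [mem_fixSub, LinearMap.mem_range]
    constructor
    · intro hv
      refine ⟨fun j => v (blockIdx h (Sum.inr j)), funext fun i => ?_⟩
      obtain ⟨s, rfl⟩ := (blockIdx h).surjective i
      have hl : (fun j => v (blockIdx h (Sum.inl j))) = 0 := hfpf _ (funext fun j => by
        have := key v (Sum.inl j)
        rw [hv, Sum.elim_inl] at this
        exact this.symm)
      rcases s with s | s
      · simpa [Φ] using (congrFun hl s).symm
      · simp [Φ]
    · rintro ⟨u, rfl⟩
      funext i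
      obtain ⟨s, rfl⟩ := (blockIdx h).surjective i
      rw [key]
      rcases s with s | s
      · rw [Sum.elim_inl, show (fun j => Φ u (blockIdx h (Sum.inl j))) = 0 from funext fun j => by simp [Φ],
          Matrix.mulVec_zero]
        simp [Φ]
      · rw [Sum.elim_inr]
  rw [hrange, LinearMap.finrank_range_of_inj hΦ, finrank_fintype_fun_eq_card, Fintype.card_fin]

theorem det_block (hF : Fintype.card F = q ^ 2) (h : k + l = n) (y : ↥(GU k F q)) :
    (((blockGU hF h (y, 1)) : GL (Fin n) F) : Matrix (Fin n) (Fin n) F).det =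
      ((y : GL (Fin k) F) : Matrix (Fin k) (Fin k) F).det := by
  rw [blockGU_val]
  show (Matrix.reindexAlgEquiv F F (blockIdx h) (Matrix.fromBlocks
      ((y : GL (Fin k) F) : Matrix (Fin k) (Fin k) F) 0 0 1)).det = _
  rw [Matrix.reindexAlgEquiv_apply, Matrix.det_reindex_self, Matrix.det_fromBlocks_zero₂₁, Matrix.det_one, mul_one]

variable {r : ℕ} [Fact r.Prime]

theorem not_dvd_card_GU (hF : Fintype.card F = q ^ 2) {e i : ℕ} (hie : i < e) (hr2 : r ≠ 2) (hre : r ∣ q ^ e + 1)
    (he : Odd e) (hmin : ∀ j, Odd j → j < e → ¬ r ∣ q ^ j + 1) : ¬ r ∣ Nat.card ↥(GU i F q) := by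
  have hr : r.Prime := Fact.out
  have hrq : ¬ r ∣ q := fun h =>
    hr.not_dvd_one ((Nat.dvd_add_right (dvd_pow h (by rintro rfl; exact absurd he (by decide)))).1 hre)
  rw [card_GU hF, hr.dvd_mul]
  rintro (h | h)
  · exact hrq (hr.dvd_of_dvd_pow h)
  obtain ⟨j, hj, hd⟩ := (hr.prime.dvd_finsetProd_iff _).1 h
  rw [Finset.mem_range] at hj
  split_ifs at hd with hev
  · exact hmin (j + 1) hev.add_one (by omega) hd
  have hje : Even (j + 1) := (Nat.not_even_iff_odd.1 hev).add_one
  have h1 : (-(q : ZMod r)) ^ e = 1 := by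
    rw [he.neg_pow]
    have := (ZMod.natCast_eq_zero_iff _ _).2 hre
    push_cast at this
    linear_combination -this
  have h2 : (-(q : ZMod r)) ^ (j + 1) = 1 := by
    rw [hje.neg_pow]
    have := (ZMod.natCast_eq_zero_iff _ _).2 hd
    rw [Nat.cast_sub (Nat.one_le_pow _ _ (by have := two_le_q hF; omega))] at this
    push_cast at this
    linear_combination this
  set o := orderOf (-(q : ZMod r)) with ho
  have hoe : o ∣ e := orderOf_dvd_of_pow_eq_one h1
  have hole : o ≤ j + 1 := Nat.le_of_dvd (by omega) (orderOf_dvd_of_pow_eq_one h2)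
  have hoodd : Odd o := he.of_dvd_nat hoe
  refine hmin o hoodd (by omega) ?_
  rw [← ZMod.natCast_eq_zero_iff]
  have h3 := pow_orderOf_eq_one (-(q : ZMod r))
  rw [← ho, hoodd.neg_pow] at h3
  push_cast
  linear_combination -h3

/-- A fixed-point-free element of order `r` and determinant one in a unitary group of odd degree. -/
theorem exists_fpf_block (hF : Fintype.card F = q ^ 2) (hr2 : r ≠ 2) {e : ℕ} (he : Odd e) (hre : r ∣ q ^ e + 1)
    (hmin : ∀ j, Odd j → j < e → ¬ r ∣ q ^ j + 1) :
    ∃ k, Odd k ∧ k ≤ max e 3 ∧ ∃ y : ↥(GU k F q), y ^ r = 1 ∧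
      ((y : GL (Fin k) F) : Matrix (Fin k) (Fin k) F).det = 1 ∧
      ∀ v : Fin k → F, ((y : GL (Fin k) F) : Matrix (Fin k) (Fin k) F) *ᵥ v = v → v = 0 := by
  classical
  have hr : r.Prime := Fact.out
  obtain ⟨a, rfl⟩ := he
  rcases Nat.eq_zero_or_pos a with rfl | ha
  · obtain ⟨ζ, hζ⟩ := exists_primitive_of_dvd (F := F) (d := r)
      (card_units_eq hF ▸ Dvd.dvd.mul_left (by simpa using hre) _)
    have hζr : (ζ : F) ^ r = 1 := by rw [← Units.val_pow_eq_pow_val, hζ.pow_eq_one, Units.val_one]
    have hζq : (ζ : F) ^ (q + 1) = 1 := by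
      obtain ⟨c, hc⟩ := hre
      rw [mul_zero, zero_add, pow_one] at hc
      rw [hc, pow_mul, hζr, one_pow]
    set d : Fin 3 → F := ![(ζ : F), (ζ : F), ((ζ : F) ^ 2)⁻¹] with hd
    have hd1 : ∀ i, d i ^ (q + 1) = 1 := by
      intro i
      fin_cases i
      · exact hζq
      · exact hζq
      · show (((ζ : F) ^ 2)⁻¹) ^ (q + 1) = 1
        rw [inv_pow, ← pow_mul, mul_comm, pow_mul, hζq, one_pow, inv_one]
    have hdne : ∀ i, d i ≠ 1 := by
      intro i
      have h1 : (ζ : F) ≠ 1 := fun h => hζ.ne_one hr.one_lt (Units.ext h)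
      fin_cases i
      · exact h1
      · exact h1
      · show ((ζ : F) ^ 2)⁻¹ ≠ 1
        intro h
        have h2 : ζ ^ 2 = 1 := Units.ext (by rw [Units.val_pow_eq_pow_val, ← inv_inv ((ζ : F) ^ 2), h]; simp)
        have h3 := Nat.le_of_dvd (by norm_num) (hζ.dvd_of_pow_eq_one 2 h2)
        have := hr.two_le
        omega
    refine ⟨3, by decide, le_max_right _ _, diagGU d hd1, Subtype.ext (Units.ext ?_), ?_, ?_⟩
    · rw [SubmonoidClass.coe_pow, Units.val_pow_eq_pow_val, diagGU_val, Matrix.diagonal_pow, OneMemClass.coe_one,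
        Units.val_one, ← Matrix.diagonal_one]
      congr 1
      funext i
      fin_cases i
      · exact hζr
      · exact hζr
      · show (((ζ : F) ^ 2)⁻¹) ^ r = 1
        rw [inv_pow, ← pow_mul, mul_comm, pow_mul, hζr, one_pow, inv_one]
    · rw [diagGU_val, Matrix.det_diagonal, Fin.prod_univ_three]
      show (ζ : F) * ζ * ((ζ : F) ^ 2)⁻¹ = 1
      field_simp
    · intro v hv
      funext i
      have := congrFun hv i
      rw [diagGU_val, Matrix.mulVec_diagonal] at this
      rcases mul_eq_mul_right_iff.1 (this.trans (one_mul _).symm) with h | h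
      · exact absurd h (hdne i)
      · exact h
  · set e := 2 * a + 1 with he
    have he' : Odd e := ⟨a, rfl⟩
    have hdvd : r ∣ Nat.card ↥(GU e F q) := by
      rw [card_GU hF]
      refine Dvd.dvd.mul_left (dvd_trans ?_ (Finset.dvd_prod_of_mem _ (Finset.mem_range.2 (by omega : 2 * a < e)))) _
      rw [if_pos (even_two_mul a)]
      exact hre
    obtain ⟨y, hy⟩ := exists_prime_orderOf_dvd_card' r hdvd
    have hyr : y ^ r = 1 := by rw [← hy, pow_orderOf_eq_one]
    refine ⟨e, he', le_max_left _ _, y, hyr, ?_, ?_⟩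
    · have h1 : ((y : GL (Fin e) F) : Matrix (Fin e) (Fin e) F).det ^ r = 1 := by
        rw [← Matrix.det_pow, ← Units.val_pow_eq_pow_val, ← SubmonoidClass.coe_pow, hyr, OneMemClass.coe_one,
          Units.val_one, Matrix.det_one]
      have h2 := det_pow_succ_eq_one hF y.2
      have hco : Nat.Coprime r (q + 1) := by
        refine (Nat.Prime.coprime_iff_not_dvd hr).2 fun h => hmin 1 odd_one (by omega) (by rwa [pow_one])
      have h3 := pow_gcd_eq_one.2 ⟨h1, h2⟩
      rwa [hco.gcd_eq_one, pow_one] at h3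
    · intro v hv
      by_contra hv0
      -- a fixed vector can be taken of norm one
      set W := fixSub ((y : GL (Fin e) F) : Matrix (Fin e) (Fin e) F) with hW
      have hexu : ∃ u ∈ W, ∃ v ∈ W, hermForm e F q u v ≠ 0 := by
        by_contra h
        push Not at h
        refine hv0 (herm_nondeg hF v fun x => ?_)
        set Y : Matrix (Fin e) (Fin e) F := ((y : GL (Fin e) F) : Matrix (Fin e) (Fin e) F)
        have hform : ∀ a b, hermForm e F q (Y *ᵥ a) (Y *ᵥ b) = hermForm e F q a b := mem_GU.1 y.2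
        have hYr : Y ^ r = 1 := by
          rw [← Units.val_pow_eq_pow_val, ← SubmonoidClass.coe_pow, hyr, OneMemClass.coe_one, Units.val_one]
        set π := ∑ i ∈ Finset.range r, (Y ^ i) *ᵥ x with hπ
        have hπW : π ∈ W := by
          rw [hW, mem_fixSub, hπ, Matrix.mulVec_sum]
          simp_rw [Matrix.mulVec_mulVec, ← pow_succ']
          have h1 := Finset.sum_range_succ' (fun i => (Y ^ i) *ᵥ x) r
          have h2 := Finset.sum_range_succ (fun i => (Y ^ i) *ᵥ x) r
          rw [h2, hYr, ← pow_zero Y] at h1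
          exact (add_right_cancel h1).symm
        have hinv : ∀ i : ℕ, hermForm e F q v ((Y ^ i) *ᵥ x) = hermForm e F q v x := by
          intro i
          induction i with
          | zero => rw [pow_zero, Matrix.one_mulVec]
          | succ i ih =>
            rw [pow_succ', ← Matrix.mulVec_mulVec]
            conv_lhs => rw [← hv]
            rw [hform, ih]
        have h1 := h v (mem_fixSub.2 hv) π hπW
        rw [hπ, herm_sum_right hF] at h1
        simp only [hinv, Finset.sum_const, Finset.card_range, nsmul_eq_mul] at h1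
        refine (mul_eq_zero.1 h1).resolve_left fun hr0 => ?_
        obtain ⟨p, c, hp, hchar, -, hqc⟩ := exists_char hF
        haveI := hchar
        have hpr : p ∣ r := (CharP.cast_eq_zero_iff F p r).1 hr0
        obtain rfl := (Nat.prime_dvd_prime_iff_eq hp hr).1 hpr
        have hrq : p ∣ q := by
          rcases Nat.eq_zero_or_pos c with rfl | hc
          · have := two_le_q hF
            rw [hqc, pow_zero] at this
            omega
          · exact hqc ▸ dvd_pow_self p hc.ne'
        exact hr.not_dvd_one ((Nat.dvd_add_right (dvd_pow hrq (by omega))).1 hre)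
      obtain ⟨w, hwW, hw1⟩ := exists_norm_one_mem hF hexu
      have he1 : 1 + (e - 1) = e := by omega
      set i₀ : Fin e := blockIdx he1 (Sum.inl 0) with hi₀
      obtain ⟨g, hg, hge⟩ := exists_GU_map_norm_one hF (u := Pi.single i₀ 1)
        (by rw [herm_single_single hF, if_pos rfl]) hw1
      set y' : ↥(GU e F q) := ⟨g, hg⟩⁻¹ * y * ⟨g, hg⟩ with hy'
      have hfix : ((y' : GL (Fin e) F) : Matrix (Fin e) (Fin e) F) *ᵥ Pi.single i₀ 1 = Pi.single i₀ 1 := by
        show ((g⁻¹ * (y : GL (Fin e) F) * g : GL (Fin e) F) : Matrix (Fin e) (Fin e) F) *ᵥ Pi.single i₀ 1 = _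
        rw [Units.val_mul, Units.val_mul, ← Matrix.mulVec_mulVec, hge, ← Matrix.mulVec_mulVec, mem_fixSub.1 hwW,
          ← hge, Matrix.mulVec_mulVec, ← Units.val_mul, inv_mul_cancel, Units.val_one, Matrix.one_mulVec]
      have hcol : ∀ s, ((y' : GL (Fin e) F) : Matrix (Fin e) (Fin e) F) s i₀ = (Pi.single i₀ (1 : F) : Fin e → F) s := by
        intro s
        rw [← hfix, Matrix.mulVec_single_one]
        rfl
      obtain ⟨pr, hpr⟩ := mem_range_blockGU hF he1 y' (fun i j => by
        rw [Subsingleton.elim j 0, ← hi₀, hcol, Pi.single_eq_of_ne]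
        exact fun h => by simpa [hi₀] using (blockIdx he1).injective h)
      have hpr' : pr ^ r = 1 := by
        refine blockGU_injective hF he1 ?_
        rw [map_pow, hpr, map_one, hy', show ⟨g, hg⟩⁻¹ * y * ⟨g, hg⟩ = MulAut.conj (⟨g, hg⟩ : ↥(GU e F q))⁻¹ y by
          simp, ← map_pow, hyr, map_one]
      have hp2 : pr.2 = 1 := by
        rw [← orderOf_eq_one_iff]
        by_contra hne
        have h1 := orderOf_dvd_of_pow_eq_one (show pr.2 ^ r = 1 from congrArg Prod.snd hpr')
        rcases (Nat.dvd_prime hr).1 h1 with h | h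
        · exact hne h
        · exact not_dvd_card_GU (i := e - 1) hF (by omega) hr2 hre he' hmin (h ▸ orderOf_dvd_natCard pr.2)
      have hp1 : pr.1 = 1 := by
        refine Subtype.ext (Units.ext (Matrix.ext fun i j => ?_))
        rw [Subsingleton.elim i 0, Subsingleton.elim j 0]
        have := hcol i₀
        rw [← hpr, Pi.single_eq_same, blockGU_val] at this
        simpa [blockMat, hi₀] using this
      have hy1 : y = 1 := by
        have h1 : y' = 1 := by rw [← hpr, show pr = 1 from Prod.ext hp1 hp2, map_one]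
        rw [hy', mul_assoc, inv_mul_eq_one] at h1
        exact mul_eq_right.1 h1.symm
      rw [hy1, orderOf_one] at hy
      exact hr.ne_one hy.symm

/-- The linear maps fixing both members of a pair. -/
def pairStab (D : Fin 2 → Submodule F (Fin n → F)) : Subgroup (GL (Fin n) F) where
  carrier := {g | ∀ i, (D i).map (Matrix.toLin' (g : Matrix (Fin n) (Fin n) F)) = D i}
  one_mem' i := by simp
  mul_mem' {a b} ha hb i := by rw [Units.val_mul, Matrix.toLin'_mul, Submodule.map_comp, hb, ha]
  inv_mem' {a} ha i := by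
    conv_lhs => rw [← ha i]
    rw [← Submodule.map_comp, ← Matrix.toLin'_mul, ← Units.val_mul, inv_mul_cancel, Units.val_one, Matrix.toLin'_one,
      Submodule.map_id]

theorem pairStab_le (D : Fin 2 → Submodule F (Fin n → F)) : pairStab D ≤ Cfsg.Geo.decompositionStabilizer D :=
  fun _ hg => ⟨1, fun i => by rw [hg i, Equiv.Perm.one_apply]⟩

/-- The isometries fixing both members of a pair form a general linear group. -/
theorem card_pairStab {D : Fin 2 → Submodule F (Fin n → F)} (hF : Fintype.card F = q ^ 2) (hP : IsPair q m D) :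
    Nat.card ↥(GU n F q ⊓ pairStab D) =
      ∏ i : Fin m, (Fintype.card F ^ m - Fintype.card F ^ (i : ℕ)) := by
  classical
  have hcard := card_linearIndependent (K := F) (V := D 0) (le_of_eq (hP.finrank_eq 0).symm)
  rw [hP.finrank_eq] at hcard
  rw [← hcard]
  let e := Module.finBasisOfFinrankEq F (D 0) (hP.finrank_eq 0)
  have hmem : ∀ g : ↥(GU n F q ⊓ pairStab D), ∀ i, ∀ v ∈ D i,
      ((g : GL (Fin n) F) : Matrix (Fin n) (Fin n) F) *ᵥ v ∈ D i := fun g i v hv => by
    rw [← Matrix.toLin'_apply]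
    exact (le_of_eq (g.2.2 i)) (Submodule.mem_map_of_mem hv)
  let Φ : ↥(GU n F q ⊓ pairStab D) → { s : Fin m → D 0 // LinearIndependent F s } := fun g =>
    ⟨fun i => ⟨((g : GL (Fin n) F) : Matrix (Fin n) (Fin n) F) *ᵥ (e i : Fin n → F), hmem g 0 _ (e i).2⟩, by
      refine LinearIndependent.of_comp (D 0).subtype ?_
      exact (e.linearIndependent.map' (D 0).subtype (Submodule.ker_subtype _)).map_injOn
        (Matrix.toLin' ((g : GL (Fin n) F) : Matrix (Fin n) (Fin n) F))
        (Set.injOn_of_injective (Matrix.mulVec_injective_of_isUnit (g : GL (Fin n) F).isUnit))⟩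
  refine Nat.card_eq_of_bijective Φ ⟨fun g g' h => ?_, fun s => ?_⟩
  · have h0 : ∀ v ∈ D 0, ((g : GL (Fin n) F) : Matrix (Fin n) (Fin n) F) *ᵥ v =
        ((g' : GL (Fin n) F) : Matrix (Fin n) (Fin n) F) *ᵥ v := by
      intro v hv
      have h' : ((Matrix.toLin' ((g : GL (Fin n) F) : Matrix (Fin n) (Fin n) F)).comp (D 0).subtype) =
          (Matrix.toLin' ((g' : GL (Fin n) F) : Matrix (Fin n) (Fin n) F)).comp (D 0).subtype :=
        e.ext fun i => congrArg Subtype.val (congrFun (congrArg Subtype.val h) i)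
      exact LinearMap.congr_fun h' ⟨v, hv⟩
    have h1 : ∀ w ∈ D 1, ((g : GL (Fin n) F) : Matrix (Fin n) (Fin n) F) *ᵥ w =
        ((g' : GL (Fin n) F) : Matrix (Fin n) (Fin n) F) *ᵥ w := by
      intro w hw
      refine sub_eq_zero.1 (eq_zero_of_sing hF hP (Submodule.sub_mem _ (hmem g 1 w hw) (hmem g' 1 w hw))
        fun u hu => ?_)
      obtain ⟨u', hu', rfl⟩ : ∃ u' ∈ D 0, ((g : GL (Fin n) F) : Matrix (Fin n) (Fin n) F) *ᵥ u' = u := by
        rw [← g.2.2 0] at hu
        obtain ⟨u', hu', rfl⟩ := Submodule.mem_map.1 hu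
        exact ⟨u', hu', rfl⟩
      rw [herm_sub_left, mem_GU.1 g.2.1]
      rw [h0 u' hu', mem_GU.1 g'.2.1, sub_self]
    refine Subtype.ext (Units.ext (Matrix.ext_iff_mulVec.2 fun v => ?_))
    have hv : v ∈ D 0 ⊔ D 1 := by rw [hP.compl.sup_eq_top]; exact Submodule.mem_top
    obtain ⟨a, ha, b, hb, rfl⟩ := Submodule.mem_sup.1 hv
    rw [Matrix.mulVec_add, Matrix.mulVec_add, h0 a ha, h1 b hb]
  · obtain ⟨b, hb, hbl⟩ := exists_frame_of hF hP (a := fun i => (e i : Fin n → F)) (fun i => (e i).2)
      (e.linearIndependent.map' (D 0).subtype (Submodule.ker_subtype _))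
    obtain ⟨b', hb', hbl'⟩ := exists_frame_of hF hP (a := fun i => (s.1 i : Fin n → F)) (fun i => (s.1 i).2)
      (s.2.map' (D 0).subtype (Submodule.ker_subtype _))
    obtain ⟨g, hg, hgb, hgmap, -⟩ := exists_GU_of_frames hF hP hP hb hb'
    refine ⟨⟨g, hg, hgmap⟩, Subtype.ext (funext fun i => Subtype.ext ?_)⟩
    show (g : Matrix (Fin n) (Fin n) F) *ᵥ (e i : Fin n → F) = (s.1 i : Fin n → F)
    rw [← hbl, hgb, hbl']

end CfsgLib.Classical.PrimeDerangement.UnitaryPair
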