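import Cfsg.Agent.Classical.PrimeDerangement.UnitaryPair.Frame
import Cfsg.Agent.Classical.Unitary.Blocks
import Cfsg.Agent.Classical.Unitary.Order
import Cfsg.Agent.Classical.Unitary.Isotropic

/-!
Elements of prime order of the determinant-one unitary group: fixed-point-free blocks, transvections, and the
invariant pairs of elements whose square is scalar.
-/

set_option autoImplicit false
set_option linter.unusedSectionVars false

namespace CfsgLib.Classical.PrimeDerangement.UnitaryPair

open Cfsg Matrix Module CfsgLib.Unitary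

variable {F : Type*} [Field F] [Fintype F] {n m q : ℕ}

/-- The fixed space of a matrix. -/
noncomputable def fixSub (M : Matrix (Fin n) (Fin n) F) : Submodule F (Fin n → F) :=
  LinearMap.ker (Matrix.toLin' M - 1)

theorem mem_fixSub {M : Matrix (Fin n) (Fin n) F} {v : Fin n → F} : v ∈ fixSub M ↔ M *ᵥ v = v := by
  rw [fixSub, LinearMap.mem_ker, LinearMap.sub_apply, Matrix.toLin'_apply, Module.End.one_apply, sub_eq_zero]

theorem finrank_fixSub_conj (g x : GL (Fin n) F) :
    finrank F (fixSub ((g⁻¹ * x * g : GL (Fin n) F) : Matrix (Fin n) (Fin n) F)) =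
      finrank F (fixSub (x : Matrix (Fin n) (Fin n) F)) := by
  let e : (Fin n → F) ≃ₗ[F] (Fin n → F) :=
    { Matrix.toLin' (g : Matrix (Fin n) (Fin n) F) with
      invFun := fun v => ((g⁻¹ : GL (Fin n) F) : Matrix (Fin n) (Fin n) F) *ᵥ v
      left_inv := fun v => by simp [Matrix.mulVec_mulVec]
      right_inv := fun v => by simp [Matrix.mulVec_mulVec] }
  refine (e.ofSubmodules _ _ ?_).finrank_eq
  ext v
  rw [Submodule.mem_map]
  constructor
  · rintro ⟨u, hu, rfl⟩
    rw [mem_fixSub] at hu ⊢
    show (x : Matrix (Fin n) (Fin n) F) *ᵥ ((g : Matrix (Fin n) (Fin n) F) *ᵥ u) = (g : Matrix (Fin n) (Fin n) F) *ᵥ u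
    nth_rewrite 2 [← hu]
    simp [Matrix.mulVec_mulVec, Units.val_mul, ← mul_assoc]
  · intro hv
    refine ⟨((g⁻¹ : GL (Fin n) F) : Matrix (Fin n) (Fin n) F) *ᵥ v, ?_, ?_⟩
    · rw [mem_fixSub] at hv ⊢
      rw [Matrix.mulVec_mulVec, ← Units.val_mul, mul_assoc, mul_inv_cancel, mul_one, Units.val_mul,
        ← Matrix.mulVec_mulVec, hv]
    · show (g : Matrix (Fin n) (Fin n) F) *ᵥ (((g⁻¹ : GL (Fin n) F) : Matrix (Fin n) (Fin n) F) *ᵥ v) = v
      simp [Matrix.mulVec_mulVec]

/-- Some conjugate by a determinant-one isometry lies in the stabiliser of the pair. -/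
def Covered (q : ℕ) (D : Fin 2 → Submodule F (Fin n → F)) (x : GL (Fin n) F) : Prop :=
  ∃ g ∈ GU n F q ⊓ Cfsg.Geo.specialLinear (Fin n) F, g⁻¹ * x * g ∈ Cfsg.Geo.decompositionStabilizer D

theorem not_covered_of_fix {D : Fin 2 → Submodule F (Fin n → F)} (hF : Fintype.card F = q ^ 2)
    (hP : IsPair q m D) {x : GL (Fin n) F} (hx : x ∈ GU n F q)
    (hodd : Odd (finrank F (fixSub (x : Matrix (Fin n) (Fin n) F))))
    (hbig : m < finrank F (fixSub (x : Matrix (Fin n) (Fin n) F)) ∨ ∃ k, Odd k ∧ x ^ k = 1) :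
    ¬ Covered q D x := by
  rintro ⟨g, hg, hmem⟩
  have hg' : g ∈ GU n F q := (Subgroup.mem_inf.1 hg).1
  have e := finrank_fixSub_conj g x
  rcases fix_alternative hF hP (mul_mem (mul_mem (inv_mem hg') hx) hg') hmem with h | ⟨h, hswap⟩
  · rw [← fixSub, e] at h
    exact Nat.not_even_iff_odd.2 hodd h
  · rw [← fixSub, e] at h
    rcases hbig with hb | ⟨k, hk, hxk⟩
    · omega
    -- an element of odd order cannot interchange the members
    set y := g⁻¹ * x * g with hy
    have hyk : y ^ k = 1 := by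
      rw [hy, show g⁻¹ * x * g = MulAut.conj g⁻¹ x by simp, ← map_pow, hxk, map_one]
    obtain ⟨σ, hσ⟩ := hmem
    have hpow : ∀ j : ℕ, ∀ i, (D i).map (Matrix.toLin' ((y ^ j : GL (Fin n) F) : Matrix (Fin n) (Fin n) F)) =
        D ((σ ^ j) i) := by
      intro j
      induction j with
      | zero => intro i; simp
      | succ j ih =>
        intro i
        rw [pow_succ, Units.val_mul, Matrix.toLin'_mul, Submodule.map_comp, hσ, ih, pow_succ]
        rfl
    have hinj : ∀ i j, D i = D j → i = j := by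
      intro i j hij
      by_contra hne
      have hd : D 0 = D 1 := by
        fin_cases i <;> fin_cases j <;> first | exact absurd rfl hne | exact hij | exact hij.symm
      have hb := hP.compl.inf_eq_bot
      rw [← hd, inf_idem] at hb
      have := hP.finrank_eq 0
      rw [hb, finrank_bot] at this
      have := hP.two_mul
      have hle := Submodule.finrank_le (fixSub (x : Matrix (Fin n) (Fin n) F))
      rw [finrank_fintype_fun_eq_card, Fintype.card_fin] at hle
      obtain ⟨c, hc⟩ := hodd
      omega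
    have h01 : σ 0 = 1 := hinj _ _ ((hσ 0).symm.trans hswap)
    have hk1 : (σ ^ k) 0 = 0 := by
      refine hinj _ _ ?_
      rw [← hpow k 0, hyk]
      simp
    have hσ2 : σ ^ 2 = 1 := by
      rw [sq]
      refine Equiv.ext fun i => ?_
      have h10 : σ 1 = 0 := by
        rcases Fin.exists_fin_two.1 ⟨σ 1, rfl⟩ with h' | h'
        · exact h'
        · exact absurd (σ.injective (h'.trans h01.symm)) (by decide)
      rw [Equiv.Perm.mul_apply, Equiv.Perm.one_apply]
      rcases Fin.exists_fin_two.1 ⟨i, rfl⟩ with rfl | rfl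
      · rw [h01, h10]
      · rw [h10, h01]
    obtain ⟨c, rfl⟩ := hk
    rw [pow_succ, pow_mul, hσ2, one_pow, one_mul, h01] at hk1
    exact absurd hk1 (by decide)

/-- A pair preserved by `x` gives a conjugate in the stabiliser. -/
theorem covered_of_pair {D D' : Fin 2 → Submodule F (Fin n → F)} (hF : Fintype.card F = q ^ 2) (hm : 0 < m)
    (hP : IsPair q m D) (hP' : IsPair q m D') {x : GL (Fin n) F}
    (hx : ∀ i, ∀ v ∈ D' i, (x : Matrix (Fin n) (Fin n) F) *ᵥ v ∈ D' i) : Covered q D x := by
  obtain ⟨g, hg, hmap⟩ := exists_SU_map hF hm hP hP'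
  refine ⟨g, hg, 1, fun i => ?_⟩
  have hinj : Function.Injective
      (Matrix.toLin' ((g⁻¹ * x * g : GL (Fin n) F) : Matrix (Fin n) (Fin n) F)) := fun a b hab => by
    have h := congrArg (fun v => (((g⁻¹ * x * g)⁻¹ : GL (Fin n) F) : Matrix (Fin n) (Fin n) F) *ᵥ v) hab
    simp only [Matrix.toLin'_apply, Matrix.mulVec_mulVec] at h
    rwa [← Units.val_mul, inv_mul_cancel, Units.val_one, Matrix.one_mulVec, Matrix.one_mulVec] at h
  rw [Equiv.Perm.one_apply]
  refine Submodule.eq_of_le_of_finrank_eq ?_ ((Submodule.equivMapOfInjective _ hinj (D i)).finrank_eq.symm)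
  rintro _ ⟨v, hv, rfl⟩
  have h1 : (g : Matrix (Fin n) (Fin n) F) *ᵥ v ∈ D' i := by
    rw [← hmap i]; exact Submodule.mem_map_of_mem (f := Matrix.toLin' (g : Matrix (Fin n) (Fin n) F)) hv
  have h2 := hx i _ h1
  rw [← hmap i] at h2
  obtain ⟨u, hu, hu'⟩ := Submodule.mem_map.1 h2
  rw [Matrix.toLin'_apply] at hu' ⊢
  rw [Units.val_mul, Units.val_mul, mul_assoc, ← Matrix.mulVec_mulVec, ← Matrix.mulVec_mulVec, ← hu',
    Matrix.mulVec_mulVec, ← Units.val_mul, inv_mul_cancel, Units.val_one, Matrix.one_mulVec]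
  exact hu

/-- The pair spanned by `u i ± ι u' i`. -/
theorem exists_pair {κ : Type*} [Fintype κ] [DecidableEq κ] (hF : Fintype.card F = q ^ 2) (h2 : (2 : F) ≠ 0) {ι : F}
    (hι : ι ^ (q + 1) = -1) (hκ : 2 * Fintype.card κ = n) (u : κ ⊕ κ → Fin n → F)
    (hu : ∀ i j, hermForm n F q (u i) (u j) = if i = j then 1 else 0) :
    ∃ D' : Fin 2 → Submodule F (Fin n → F), IsPair q (Fintype.card κ) D' ∧
      ∀ (X : Matrix (Fin n) (Fin n) F) (c : κ → F), (∀ i, X *ᵥ u (Sum.inl i) = c i • u (Sum.inl i)) →
        (∀ i, X *ᵥ u (Sum.inr i) = c i • u (Sum.inr i)) → ∀ e, ∀ v ∈ D' e, X *ᵥ v ∈ D' e := by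
  classical
  set ε : Fin 2 → F := ![1, -1] with hε
  set f : Fin 2 → κ → Fin n → F := fun e i => u (Sum.inl i) + (ε e * ι) • u (Sum.inr i) with hf
  set D' : Fin 2 → Submodule F (Fin n → F) := fun e => Submodule.span F (Set.range (f e)) with hD'
  have hεq : ∀ e, (ε e * ι) ^ (q + 1) = -1 := fun e => by
    rw [mul_pow, hι]
    fin_cases e <;> simp [hε, neg_one_pow_succ hF]
  have hsing : ∀ e, Cfsg.Geo.IsTotallySingularFor (hermForm n F q) (D' e) := by
    intro e a ha b hb
    rw [hD', Submodule.mem_span_range_iff_exists_fun] at ha hb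
    obtain ⟨s, rfl⟩ := ha
    obtain ⟨t, rfl⟩ := hb
    rw [herm_sum_left]
    refine Finset.sum_eq_zero fun i _ => ?_
    rw [herm_sum_right hF]
    refine Finset.sum_eq_zero fun j _ => ?_
    simp only [hf, herm_smul_left, herm_smul_right, herm_add_left, herm_add_right hF, hu,
      Sum.inl.injEq, Sum.inr.injEq, reduceCtorEq, if_false]
    by_cases hij : i = j
    · rw [if_pos hij]
      have := hεq e
      rw [pow_succ'] at this
      linear_combination (s i * t j ^ q) * this
    · rw [if_neg hij]; ring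
  have hinl : ∀ i, u (Sum.inl i) ∈ D' 0 ⊔ D' 1 := fun i => by
    have h : u (Sum.inl i) = (2 : F)⁻¹ • (f 0 i + f 1 i) := by
      simp only [hf, hε, Matrix.cons_val_zero, Matrix.cons_val_one, one_mul, neg_mul, neg_smul]
      rw [show u (Sum.inl i) + ι • u (Sum.inr i) + (u (Sum.inl i) + -(ι • u (Sum.inr i))) =
        (2 : F) • u (Sum.inl i) by module, smul_smul, inv_mul_cancel₀ h2, one_smul]
    rw [h]
    exact Submodule.smul_mem _ _ (Submodule.add_mem_sup (Submodule.subset_span ⟨i, rfl⟩) (Submodule.subset_span ⟨i, rfl⟩))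
  have hinr : ∀ i, u (Sum.inr i) ∈ D' 0 ⊔ D' 1 := fun i => by
    have hι0 : ι ≠ 0 := fun h => by
      rw [h, zero_pow (Nat.succ_ne_zero q)] at hι
      exact neg_ne_zero.2 one_ne_zero hι.symm
    have h : u (Sum.inr i) = (2 * ι)⁻¹ • (f 0 i - f 1 i) := by
      simp only [hf, hε, Matrix.cons_val_zero, Matrix.cons_val_one, one_mul, neg_mul, neg_smul]
      rw [show u (Sum.inl i) + ι • u (Sum.inr i) - (u (Sum.inl i) + -(ι • u (Sum.inr i))) =
        (2 * ι) • u (Sum.inr i) by module, smul_smul, inv_mul_cancel₀ (mul_ne_zero h2 hι0), one_smul]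
    rw [h]
    refine Submodule.smul_mem _ _ ?_
    rw [sub_eq_add_neg]
    exact Submodule.add_mem_sup (Submodule.subset_span ⟨i, rfl⟩)
      (Submodule.neg_mem _ (Submodule.subset_span ⟨i, rfl⟩))
  have huli : LinearIndependent F u := by
    refine Fintype.linearIndependent_iff.2 fun g hg i => ?_
    have h := congrArg (fun x => hermForm n F q x (u i)) hg
    simp only [herm_sum_left, herm_smul_left, herm_zero_left, hu, mul_ite, mul_one, mul_zero, Finset.sum_ite_eq',
      Finset.mem_univ, if_true] at h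
    exact h
  have htop : D' 0 ⊔ D' 1 = ⊤ := by
    rw [eq_top_iff]
    have hs : Submodule.span F (Set.range u) = ⊤ := by
      refine Submodule.eq_top_of_finrank_eq ?_
      rw [finrank_span_eq_card huli, Fintype.card_sum, finrank_fintype_fun_eq_card, Fintype.card_fin]
      omega
    rw [← hs, Submodule.span_le]
    rintro _ ⟨i | i, rfl⟩
    · exact hinl i
    · exact hinr i
  have hle : ∀ e, finrank F (D' e) ≤ Fintype.card κ := fun e => finrank_range_le_card (f e)
  have hd := Submodule.finrank_sup_add_finrank_inf_eq (D' 0) (D' 1)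
  rw [htop, finrank_top, finrank_fintype_fun_eq_card, Fintype.card_fin] at hd
  have h0 := hle 0
  have h1 := hle 1
  have hbot : finrank F (D' 0 ⊓ D' 1 : Submodule F (Fin n → F)) = 0 := by omega
  refine ⟨D', ⟨fun e => ?_, ⟨?_, ?_⟩, hsing⟩, ?_⟩
  · fin_cases e
    · show finrank F (D' 0) = _
      omega
    · show finrank F (D' 1) = _
      omega
  · rw [disjoint_iff]; exact Submodule.finrank_eq_zero.1 hbot
  · rw [codisjoint_iff]; exact htop
  · intro X c hl hr e v hv
    rw [hD', Submodule.mem_span_range_iff_exists_fun] at hv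
    obtain ⟨s, rfl⟩ := hv
    rw [Matrix.mulVec_sum]
    refine Submodule.sum_mem _ fun i _ => ?_
    rw [Matrix.mulVec_smul]
    refine Submodule.smul_mem _ _ ?_
    have : X *ᵥ f e i = c i • f e i := by
      simp only [hf, Matrix.mulVec_add, Matrix.mulVec_smul, hl, hr, smul_add, smul_smul, mul_comm]
    rw [this]
    exact Submodule.smul_mem _ _ (Submodule.subset_span ⟨i, rfl⟩)

/-- An element whose square is scalar and is not a half with odd eigenvalue multiplicity is covered. -/
theorem covered_two {D : Fin 2 → Submodule F (Fin n → F)} (hF : Fintype.card F = q ^ 2) (h2 : (2 : F) ≠ 0)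
    (hm : 0 < m) (hP : IsPair q m D) (hw : ∀ w : F, w ^ (q + 1) = 1 → w ^ n ≠ -1) {x : GL (Fin n) F}
    (hx : x ∈ GU n F q) (hdet : (x : Matrix (Fin n) (Fin n) F).det = 1) {z : F}
    (hz : (x : Matrix (Fin n) (Fin n) F) * (x : Matrix (Fin n) (Fin n) F) = z • (1 : Matrix (Fin n) (Fin n) F)) :
    Covered q D x := by
  classical
  have hn : 2 * m = n := hP.two_mul
  have hq := two_le_q hF
  set X : Matrix (Fin n) (Fin n) F := (x : Matrix (Fin n) (Fin n) F) with hX
  have hform : ∀ u v, hermForm n F q (X *ᵥ u) (X *ᵥ v) = hermForm n F q u v := mem_GU.1 hx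
  have hXX : ∀ v, X *ᵥ (X *ᵥ v) = z • v := fun v => by
    rw [Matrix.mulVec_mulVec, hz, Matrix.smul_mulVec, Matrix.one_mulVec]
  have hz1 : z ^ (q + 1) = 1 := by
    obtain ⟨v, hv⟩ : ∃ v : Fin n → F, hermForm n F q v v ≠ 0 := by
      refine ⟨Pi.single ⟨0, by omega⟩ 1, ?_⟩
      rw [herm_single_single hF, if_pos rfl]
      exact one_ne_zero
    have h := hform (X *ᵥ v) (X *ᵥ v)
    rw [hXX, herm_self_smul, hform] at h
    exact mul_right_cancel₀ hv (h.trans (one_mul _).symm)
  have hz0 : z ≠ 0 := fun h => by rw [h, zero_pow (Nat.succ_ne_zero q)] at hz1; exact zero_ne_one hz1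
  obtain ⟨w, hwz⟩ : IsSquare z := by
    have hodd : Odd q := by
      rcases Nat.even_or_odd q with he | ho
      · exfalso
        obtain ⟨p, a, hp, hchar, -, hqa⟩ := exists_char hF
        haveI := hchar
        obtain rfl : 2 = p := (Nat.prime_dvd_prime_iff_eq Nat.prime_two hp).1
          (Nat.prime_two.dvd_of_dvd_pow (hqa ▸ even_iff_two_dvd.1 he))
        exact h2 (CharP.cast_eq_zero F 2)
      · exact ho
    refine (FiniteField.isSquare_iff (fun h => h2 ?_) hz0).2 ?_
    · haveI := ringChar.charP F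
      exact_mod_cast (CharP.cast_eq_zero_iff F (ringChar F) 2).2 (h ▸ dvd_rfl)
    · rw [hF]
      obtain ⟨c, hc⟩ := hodd
      rw [show q ^ 2 / 2 = (q + 1) * c from Nat.div_eq_of_lt_le (by rw [hc]; ring_nf; omega) (by rw [hc]; ring_nf; omega),
        pow_mul, hz1, one_pow]
  have hw0 : w ≠ 0 := fun h => hz0 (by rw [hwz, h, mul_zero])
  have hE : ∀ v, ∃ a b, v = a + b ∧ X *ᵥ a = w • a ∧ X *ᵥ b = (-w) • b := by
    intro v
    refine ⟨(2 : F)⁻¹ • (v + w⁻¹ • X *ᵥ v), (2 : F)⁻¹ • (v - w⁻¹ • X *ᵥ v), ?_, ?_, ?_⟩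
    · rw [← smul_add, show v + w⁻¹ • X *ᵥ v + (v - w⁻¹ • X *ᵥ v) = (2 : F) • v by module, smul_smul,
        inv_mul_cancel₀ h2, one_smul]
    · rw [Matrix.mulVec_smul, Matrix.mulVec_add, Matrix.mulVec_smul, hXX, hwz, smul_smul, smul_comm w,
        smul_add w, smul_smul w, mul_inv_cancel₀ hw0, one_smul, inv_mul_cancel_left₀ hw0, add_comm]
    · rw [Matrix.mulVec_smul, Matrix.mulVec_sub, Matrix.mulVec_smul, hXX, hwz, smul_smul, smul_comm (-w),
        smul_sub (-w), smul_smul (-w), neg_mul, mul_inv_cancel₀ hw0, neg_one_smul, inv_mul_cancel_left₀ hw0,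
        neg_smul]
      congr 1
      abel
  set E : F → Submodule F (Fin n → F) := fun s => LinearMap.ker (Matrix.toLin' X - s • 1) with hEdef
  have hmemE : ∀ s v, v ∈ E s ↔ X *ᵥ v = s • v := fun s v => by
    rw [hEdef, LinearMap.mem_ker, LinearMap.sub_apply, Matrix.toLin'_apply, LinearMap.smul_apply,
      Module.End.one_apply, sub_eq_zero]
  have hsum : E w ⊔ E (-w) = ⊤ := by
    rw [eq_top_iff]
    intro v _
    obtain ⟨a, b, rfl, ha, hb⟩ := hE v
    exact Submodule.add_mem_sup ((hmemE _ _).2 ha) ((hmemE _ _).2 hb)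
  have hdisj : E w ⊓ E (-w) = ⊥ := by
    rw [Submodule.eq_bot_iff]
    intro v hv
    have h := ((hmemE _ _).1 hv.1).symm.trans ((hmemE _ _).1 hv.2)
    rw [neg_smul, eq_neg_iff_add_eq_zero, ← two_smul F, smul_smul, smul_eq_zero] at h
    exact h.resolve_left (mul_ne_zero h2 hw0)
  have hdim := Submodule.finrank_sup_add_finrank_inf_eq (E w) (E (-w))
  rw [hsum, hdisj, finrank_top, finrank_bot, add_zero, finrank_fintype_fun_eq_card, Fintype.card_fin] at hdim
  have hpair : ∀ s t, ∀ a ∈ E s, ∀ b ∈ E t, (1 - s * t ^ q) * hermForm n F q a b = 0 := by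
    intro s t a ha b hb
    have h := hform a b
    rw [(hmemE _ _).1 ha, (hmemE _ _).1 hb, herm_smul_left, herm_smul_right] at h
    linear_combination -h
  have hwq : w ^ (q + 1) = 1 ∨ w ^ (q + 1) = -1 := mul_self_eq_one_iff.1 (by rw [← mul_pow, ← hwz, hz1])
  rcases hwq with hw1 | hw1
  swap
  · -- the two eigenspaces are totally singular
    set D' : Fin 2 → Submodule F (Fin n → F) := fun e => E (![w, -w] e) with hD'
    have hsing : ∀ e, Cfsg.Geo.IsTotallySingularFor (hermForm n F q) (D' e) := by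
      intro e a ha b hb
      have h := hpair _ _ a ha b hb
      rcases mul_eq_zero.1 h with h | h
      · exfalso
        rw [← pow_succ'] at h
        have : ((![w, -w] : Fin 2 → F) e) ^ (q + 1) = -1 := by
          fin_cases e
          · simpa using hw1
          · show (-w) ^ (q + 1) = -1
            rw [← neg_one_mul, mul_pow, neg_one_pow_succ hF, one_mul, hw1]
        rw [this] at h
        exact h2 (by linear_combination h)
      · exact h
    have hle : ∀ e, finrank F (D' e) ≤ m := fun e => by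
      have hsub : D' e ≤ perp q (D' e) := fun a ha b hb => hsing e a ha b hb
      have := Submodule.finrank_mono hsub
      have := finrank_perp_add hF (D' e)
      omega
    have h0 := hle 0
    have h1 := hle 1
    change finrank F (E w) ≤ m at h0
    change finrank F (E (-w)) ≤ m at h1
    refine covered_of_pair hF hm hP (D' := D') ⟨fun e => ?_, ?_, hsing⟩ fun e v hv => ?_
    · fin_cases e
      · show finrank F (E w) = m
        omega
      · show finrank F (E (-w)) = m
        omega
    · show IsCompl (E w) (E (-w))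
      exact ⟨disjoint_iff.2 hdisj, codisjoint_iff.2 hsum⟩
    · show X *ᵥ v ∈ D' e
      rw [(hmemE _ _).1 hv]
      exact Submodule.smul_mem _ _ hv
  · -- both eigenspaces are non-degenerate of even dimension
    have hwq' : w * w ^ q = 1 := by rw [← pow_succ']; exact hw1
    have horth : ∀ a ∈ E w, ∀ b ∈ E (-w), hermForm n F q a b = 0 := fun a ha b hb => by
      have h := hpair _ _ a ha b hb
      rw [neg_pow_q hF, mul_neg, hwq', sub_neg_eq_add, one_add_one_eq_two] at h
      exact (mul_eq_zero.1 h).resolve_left h2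
    have hnd : IsNondeg q (E w) ∧ IsNondeg q (E (-w)) := by
      constructor <;> intro a ha h <;> refine herm_nondeg hF a fun v => ?_ <;>
        obtain ⟨b, c, rfl, hb, hc⟩ := hE v <;> rw [herm_add_right hF]
      · rw [h b ((hmemE _ _).2 hb), horth a ha c ((hmemE _ _).2 hc), add_zero]
      · rw [h c ((hmemE _ _).2 hc), herm_eq_zero_comm hF (horth b ((hmemE _ _).2 hb) a ha), zero_add]
    obtain ⟨k, hk⟩ : ∃ k, finrank F (E w) = k := ⟨_, rfl⟩
    obtain ⟨l, hl⟩ : ∃ l, finrank F (E (-w)) = l := ⟨_, rfl⟩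
    obtain ⟨a, ha, haW, -⟩ := exists_orthonorm_basis hF hnd.1 hk
    obtain ⟨b, hb, hbW, -⟩ := exists_orthonorm_basis hF hnd.2 hl
    rw [hk, hl] at hdim
    set all : Fin k ⊕ Fin l → Fin n → F := Sum.elim a b with hall
    have hgram : ∀ i j, hermForm n F q (all i) (all j) = if i = j then 1 else 0 := by
      rintro (i | i) (j | j)
      · simpa [hall] using ha i j
      · simpa [hall] using horth _ (haW i) _ (hbW j)
      · simpa [hall] using herm_eq_zero_comm hF (horth _ (haW j) _ (hbW i))
      · simpa [hall] using hb i j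
    have hallli : LinearIndependent F all := by
      refine Fintype.linearIndependent_iff.2 fun g hg i => ?_
      have h := congrArg (fun x => hermForm n F q x (all i)) hg
      simp only [herm_sum_left, herm_smul_left, herm_zero_left, hgram, mul_ite, mul_one, mul_zero,
        Finset.sum_ite_eq', Finset.mem_univ, if_true] at h
      exact h
    have hsgn : (-1 : F) ^ l * w ^ n = 1 := by
      haveI : Nonempty (Fin k ⊕ Fin l) := Fintype.card_pos_iff.1 (by simp; omega)
      let B := basisOfLinearIndependentOfCardEqFinrank hallli (by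
        rw [Fintype.card_sum, Fintype.card_fin, Fintype.card_fin, finrank_fintype_fun_eq_card, Fintype.card_fin]
        omega)
      have hB : ⇑B = all := coe_basisOfLinearIndependentOfCardEqFinrank _ _
      set c : Fin k ⊕ Fin l → F := Sum.elim (fun _ => w) (fun _ => -w) with hc
      have hXB : ⇑(Matrix.toLin' X) ∘ ⇑B = fun i => c i • B i := by
        funext i
        rw [Function.comp_apply, Matrix.toLin'_apply, hB]
        rcases i with i | i
        · exact (hmemE _ _).1 (haW i)
        · exact (hmemE _ _).1 (hbW i)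
      have h := B.det_comp (Matrix.toLin' X) B
      rw [B.det_self, mul_one, LinearMap.det_toLin', hdet, hXB, AlternatingMap.map_smul_univ, B.det_self,
        smul_eq_mul, mul_one, Fintype.prod_sum_type] at h
      simp only [hc, Sum.elim_inl, Sum.elim_inr, Finset.prod_const, Finset.card_univ, Fintype.card_fin] at h
      rw [neg_pow w] at h
      rw [hdim, pow_add]
      linear_combination h
    have hleven : Even l := by
      rcases Nat.even_or_odd l with he | ho
      · exact he
      · rw [ho.neg_one_pow, neg_one_mul, neg_eq_iff_eq_neg] at hsgn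
        exact absurd hsgn (hw w hw1)
    obtain ⟨l', hl'⟩ := hleven
    obtain ⟨k', hk'⟩ : Even k := by
      rcases Nat.even_or_odd k with he | ⟨c, hc⟩
      · exact he
      · omega
    obtain ⟨ι, hι⟩ := exists_norm_eq hF (a := (-1 : F)) (by rw [neg_pow_q hF, one_pow])
    let emb : (Fin k' ⊕ Fin l') ⊕ (Fin k' ⊕ Fin l') → Fin k ⊕ Fin l :=
      Sum.elim (Sum.map (fun i => Fin.cast hk'.symm (Fin.castAdd k' i)) (fun i => Fin.cast hl'.symm (Fin.castAdd l' i)))
        (Sum.map (fun i => Fin.cast hk'.symm (Fin.natAdd k' i)) (fun i => Fin.cast hl'.symm (Fin.natAdd l' i)))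
    have hembinj : Function.Injective emb := by
      rintro ((i | i) | (i | i)) ((j | j) | (j | j)) h <;>
        simp [emb, Fin.ext_iff] at h ⊢ <;> omega
    obtain ⟨D', hP', hinv⟩ := exists_pair (κ := Fin k' ⊕ Fin l') hF h2 hι (by simp; omega) (all ∘ emb)
      (fun i j => by rw [Function.comp_apply, Function.comp_apply, hgram]; exact if_congr hembinj.eq_iff rfl rfl)
    have hcard : Fintype.card (Fin k' ⊕ Fin l') = m := by simp; omega
    rw [hcard] at hP'
    refine covered_of_pair hF hm hP hP' (hinv X (Sum.elim (fun _ => w) (fun _ => -w)) ?_ ?_)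
    · rintro (i | i)
      · simpa [emb, hall] using (hmemE _ _).1 (haW _)
      · simpa [emb, hall] using (hmemE _ _).1 (hbW _)
    · rintro (i | i)
      · simpa [emb, hall] using (hmemE _ _).1 (haW _)
      · simpa [emb, hall] using (hmemE _ _).1 (hbW _)

/-- A transvection. -/
theorem exists_transvection {p : ℕ} [Fact p.Prime] [CharP F p] (hF : Fintype.card F = q ^ 2) (hn : 2 ≤ n) :
    ∃ x ∈ GU n F q ⊓ Cfsg.Geo.specialLinear (Fin n) F, x ^ p = 1 ∧
      finrank F (fixSub (x : Matrix (Fin n) (Fin n) F)) + 1 = n := by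
  classical
  obtain ⟨ι, hι⟩ := exists_norm_eq hF (a := (-1 : F)) (by rw [neg_pow_q hF, one_pow])
  set v : Fin n → F := Pi.single ⟨0, by omega⟩ 1 + ι • Pi.single ⟨1, by omega⟩ 1 with hvdef
  have hv : hermForm n F q v v = 0 := by
    simp only [hvdef, herm_add_left, herm_add_right hF, herm_smul_left, herm_smul_right, herm_single_single hF,
      Fin.mk.injEq, zero_ne_one, one_ne_zero, if_false, if_true]
    rw [pow_succ'] at hι
    linear_combination hι
  have hv0 : v ≠ 0 := fun h => by simpa [hvdef, Pi.single_apply, Fin.ext_iff] using congrFun h ⟨0, by omega⟩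
  obtain ⟨δ, hδ0, hδ⟩ := exists_trace_zero_ne_zero hF
  have hkδ : ∀ k : ℕ, (k : F) * δ + ((k : F) * δ) ^ q = 0 := by
    intro k
    induction k with
    | zero => simp [zero_pow_q hF]
    | succ k ih => rw [Nat.cast_succ, add_mul, one_mul, add_pow_q hF]; linear_combination ih + hδ
  set A := transvSU hF v δ hv hδ with hA
  have hpow : ∀ k : ℕ, A ^ k = transvSU hF v ((k : F) * δ) hv (hkδ k) := by
    intro k
    induction k with
    | zero => rw [pow_zero, transvSU_eq_one hF _ _ (Or.inl (by simp))]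
    | succ k ih =>
      rw [pow_succ, ih, hA, transvSU_mul hF hv _ _ (by rw [← add_one_mul, ← Nat.cast_succ]; exact hkδ _)]
      exact transvSU_congr hF _ _ _ _ fun x => by rw [Nat.cast_succ, add_mul (k : F) 1, one_mul]
  refine ⟨(suToGU A : GL (Fin n) F), Subgroup.mem_inf.2 ⟨(suToGU A).2, ?_⟩, ?_, ?_⟩
  · rw [Cfsg.Geo.specialLinear, MonoidHom.mem_ker]
    exact Units.ext A.1.2
  · rw [← SubmonoidClass.coe_pow, ← map_pow, hpow, transvSU_eq_one hF _ _ (Or.inl (by simp)), map_one]
    rfl
  · have hfix : fixSub (((suToGU A : ↥(GU n F q)) : GL (Fin n) F) : Matrix (Fin n) (Fin n) F) =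
        LinearMap.ker (hermLeft q v) := by
      ext u
      rw [mem_fixSub, LinearMap.mem_ker, hermLeft_apply]
      show sv A u = u ↔ _
      rw [hA, sv_transvSU, add_eq_left, smul_eq_zero, or_iff_left hv0, mul_eq_zero, or_iff_right hδ0]
    have hd := LinearMap.finrank_range_add_finrank_ker (hermLeft q v : (Fin n → F) →ₗ[F] F)
    have hr : finrank F (LinearMap.range (hermLeft q v : (Fin n → F) →ₗ[F] F)) = 1 := by
      have h0 : LinearMap.range (hermLeft q v : (Fin n → F) →ₗ[F] F) ≠ ⊥ := fun h =>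
        hv0 (herm_nondeg hF v fun u => herm_eq_zero_comm hF (by
          have := LinearMap.congr_fun (LinearMap.range_eq_bot.1 h) u
          simpa using this))
      have h1 := Submodule.one_le_finrank_iff.2 h0
      have h2 := Submodule.finrank_le (LinearMap.range (hermLeft q v : (Fin n → F) →ₗ[F] F))
      rw [finrank_self] at h2
      omega
    rw [hfix]
    rw [finrank_fintype_fun_eq_card, Fintype.card_fin] at hd
    omega

end CfsgLib.Classical.PrimeDerangement.UnitaryPair
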