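import Cfsg.Agent.Eq.Def_GeometricClasses
import Cfsg.Agent.Classical.Unitary.Parabolic
import Cfsg.Agent.Classical.Unitary.Transvection
import Cfsg.Prelude.Def_GeometricClasses

/-!
Pairs of complementary totally singular subspaces of a hermitian space: adapted bases, transitivity of the
determinant-one group, and the fixed space of an element preserving a pair.
-/

set_option autoImplicit false
set_option linter.unusedSectionVars false

namespace CfsgLib.Classical.PrimeDerangement.UnitaryPair

open Cfsg Matrix Module CfsgLib.Unitary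

variable {F : Type*} [Field F] [Fintype F] {n m q : ℕ}

/-- Two families with the same Gram matrix give sums with the same products. -/
theorem herm_sum_sum {ι : Type*} [Fintype ι] (hF : Fintype.card F = q ^ 2) {b b' : ι → Fin n → F}
    (hG : ∀ i j, hermForm n F q (b i) (b j) = hermForm n F q (b' i) (b' j)) (c d : ι → F) :
    hermForm n F q (∑ i, c i • b i) (∑ j, d j • b j) = hermForm n F q (∑ i, c i • b' i) (∑ j, d j • b' j) := by
  simp only [herm_sum_left, herm_sum_right hF, herm_smul_left, herm_smul_right, hG]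

/-- A pair of complementary totally singular subspaces of dimension `m`. -/
structure IsPair (q m : ℕ) (D : Fin 2 → Submodule F (Fin n → F)) : Prop where
  finrank_eq : ∀ i, finrank F (D i) = m
  compl : IsCompl (D 0) (D 1)
  sing : ∀ i, Cfsg.Geo.IsTotallySingularFor (hermForm n F q) (D i)

theorem IsPair.of_decomp {D : Fin 2 → Submodule F (Fin n → F)} (hD : Cfsg.Geo.IsMDecomposition m D)
    (hs : ∀ i, Cfsg.Geo.IsTotallySingularFor (hermForm n F q) (D i)) : IsPair q m D := by
  refine ⟨hD.finrank_eq, ⟨?_, ?_⟩, hs⟩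
  · exact hD.indep.pairwiseDisjoint (by decide : (0 : Fin 2) ≠ 1)
  · rw [codisjoint_iff, eq_top_iff, ← hD.iSup_eq_top]
    refine iSup_le fun i => ?_
    fin_cases i
    · exact le_sup_left
    · exact le_sup_right

theorem IsPair.two_mul {D : Fin 2 → Submodule F (Fin n → F)} (hP : IsPair q m D) : 2 * m = n := by
  have h := Submodule.finrank_add_eq_of_isCompl hP.compl
  rw [hP.finrank_eq, hP.finrank_eq, finrank_fintype_fun_eq_card, Fintype.card_fin] at h
  omega

theorem IsPair.swap {D : Fin 2 → Submodule F (Fin n → F)} (hP : IsPair q m D) :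
    IsPair q m ![D 1, D 0] := by
  refine ⟨fun i => ?_, ?_, fun i => ?_⟩
  · fin_cases i
    · exact hP.finrank_eq 1
    · exact hP.finrank_eq 0
  · simpa using hP.compl.symm
  · fin_cases i <;> simp [hP.sing]

/-- A frame adapted to a pair. -/
structure IsFrame (q : ℕ) (D : Fin 2 → Submodule F (Fin n → F)) (b : Basis (Fin m ⊕ Fin m) F (Fin n → F)) :
    Prop where
  left : ∀ i, b (Sum.inl i) ∈ D 0
  right : ∀ i, b (Sum.inr i) ∈ D 1
  dual : ∀ i j, hermForm n F q (b (Sum.inl i)) (b (Sum.inr j)) = if i = j then 1 else 0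

theorem IsFrame.dual' {D : Fin 2 → Submodule F (Fin n → F)} {b : Basis (Fin m ⊕ Fin m) F (Fin n → F)}
    (hb : IsFrame q D b) (hF : Fintype.card F = q ^ 2) (i j : Fin m) :
    hermForm n F q (b (Sum.inr i)) (b (Sum.inl j)) = if i = j then 1 else 0 := by
  rw [herm_conj hF, hb.dual]
  by_cases h : i = j
  · simp [h]
  · rw [if_neg h, if_neg (fun h' => h h'.symm), zero_pow_q hF]

theorem IsFrame.gram {D D' : Fin 2 → Submodule F (Fin n → F)} {b b' : Basis (Fin m ⊕ Fin m) F (Fin n → F)}
    (hF : Fintype.card F = q ^ 2) (hP : IsPair q m D) (hP' : IsPair q m D') (hb : IsFrame q D b)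
    (hb' : IsFrame q D' b') (i j : Fin m ⊕ Fin m) :
    hermForm n F q (b i) (b j) = hermForm n F q (b' i) (b' j) := by
  rcases i with i | i <;> rcases j with j | j
  · rw [hP.sing 0 _ (hb.left i) _ (hb.left j), hP'.sing 0 _ (hb'.left i) _ (hb'.left j)]
  · rw [hb.dual, hb'.dual]
  · rw [hb.dual' hF, hb'.dual' hF]
  · rw [hP.sing 1 _ (hb.right i) _ (hb.right j), hP'.sing 1 _ (hb'.right i) _ (hb'.right j)]

theorem eq_zero_of_sing {D : Fin 2 → Submodule F (Fin n → F)} (hF : Fintype.card F = q ^ 2)
    (hP : IsPair q m D) {w : Fin n → F} (hw : w ∈ D 1) (h : ∀ u ∈ D 0, hermForm n F q w u = 0) : w = 0 := by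
  refine herm_nondeg hF w fun v => ?_
  have hv : v ∈ D 0 ⊔ D 1 := by rw [hP.compl.sup_eq_top]; exact Submodule.mem_top
  obtain ⟨u, hu, u', hu', rfl⟩ := Submodule.mem_sup.1 hv
  rw [herm_add_right hF, h u hu, hP.sing 1 w hw u' hu', add_zero]

/-- Every basis of the first member extends to a frame. -/
theorem exists_frame_of {D : Fin 2 → Submodule F (Fin n → F)} (hF : Fintype.card F = q ^ 2)
    (hP : IsPair q m D) {a : Fin m → Fin n → F} (ha : ∀ i, a i ∈ D 0) (hli : LinearIndependent F a) :
    ∃ b : Basis (Fin m ⊕ Fin m) F (Fin n → F), IsFrame q D b ∧ ∀ i, b (Sum.inl i) = a i := by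
  classical
  have hspan : Submodule.span F (Set.range a) = D 0 :=
    Submodule.eq_of_le_of_finrank_eq (Submodule.span_le.2 (Set.range_subset_iff.2 ha))
      (by rw [finrank_span_eq_card hli, Fintype.card_fin, hP.finrank_eq])
  let φ : D 1 →ₗ[F] (Fin m → F) := LinearMap.pi fun i => (hermLeft q (a i)).comp (D 1).subtype
  have hinj : Function.Injective φ := by
    rw [← LinearMap.ker_eq_bot, Submodule.eq_bot_iff]
    intro w hw
    refine Subtype.ext (eq_zero_of_sing hF hP w.2 fun u hu => ?_)
    rw [← hspan, Submodule.mem_span_range_iff_exists_fun] at hu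
    obtain ⟨c, rfl⟩ := hu
    rw [herm_sum_right hF]
    refine Finset.sum_eq_zero fun i _ => ?_
    rw [herm_smul_right, show hermForm n F q w.1 (a i) = 0 from congrFun (LinearMap.mem_ker.1 hw) i, mul_zero]
  have hsurj : Function.Surjective φ :=
    (LinearMap.injective_iff_surjective_of_finrank_eq_finrank
      (by rw [hP.finrank_eq, finrank_fintype_fun_eq_card, Fintype.card_fin])).1 hinj
  choose w hw using fun j : Fin m => hsurj (Pi.single j 1)
  have hdual : ∀ i j, hermForm n F q (a i) (w j : Fin n → F) = if i = j then 1 else 0 := by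
    intro i j
    have h1 : hermForm n F q (w j : Fin n → F) (a i) = if i = j then 1 else 0 := by
      have := congrFun (hw j) i
      rw [Pi.single_apply] at this
      exact this
    rw [herm_conj hF, h1]
    by_cases h : i = j <;> simp [h, zero_pow_q hF]
  set f : Fin m ⊕ Fin m → Fin n → F := Sum.elim a (fun j => (w j : Fin n → F)) with hf
  have hwli : LinearIndependent F (fun j => (w j : Fin n → F)) := by
    refine Fintype.linearIndependent_iff.2 fun g hg i => ?_
    have h := congrArg (fun x => hermForm n F q x (a i)) hg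
    simp only [herm_sum_left, herm_smul_left, herm_zero_left] at h
    rw [Finset.sum_eq_single i] at h
    · rwa [show hermForm n F q (w i : Fin n → F) (a i) = 1 by
        rw [herm_conj hF, hdual, if_pos rfl, one_pow], mul_one] at h
    · intro j _ hji
      rw [show hermForm n F q (w j : Fin n → F) (a i) = 0 by
        rw [herm_conj hF, hdual, if_neg (fun h' => hji h'.symm), zero_pow_q hF], mul_zero]
    · simp
  have hfli : LinearIndependent F f := by
    refine hli.sum_type hwli (Disjoint.mono ?_ ?_ hP.compl.disjoint)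
    · exact Submodule.span_le.2 (Set.range_subset_iff.2 ha)
    · exact Submodule.span_le.2 (Set.range_subset_iff.2 fun j => (w j).2)
  have hcard : Fintype.card (Fin m ⊕ Fin m) = finrank F (Fin n → F) := by
    rw [Fintype.card_sum, Fintype.card_fin, finrank_fintype_fun_eq_card, Fintype.card_fin]
    have := hP.two_mul
    omega
  rcases Nat.eq_zero_or_pos m with rfl | hm
  · obtain rfl : n = 0 := by have := hP.two_mul; omega
    refine ⟨Basis.empty _, ⟨fun i => i.elim0, fun i => i.elim0, fun i => i.elim0⟩, fun i => i.elim0⟩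
  · haveI : Nonempty (Fin m ⊕ Fin m) := ⟨Sum.inl ⟨0, hm⟩⟩
    refine ⟨basisOfLinearIndependentOfCardEqFinrank hfli hcard, ⟨?_, ?_, ?_⟩, ?_⟩
    · intro i; simpa [hf] using ha i
    · intro i; simpa [hf] using (w i).2
    · intro i j; simpa [hf] using hdual i j
    · intro i; simp [hf]

theorem exists_frame {D : Fin 2 → Submodule F (Fin n → F)} (hF : Fintype.card F = q ^ 2) (hP : IsPair q m D) :
    ∃ b : Basis (Fin m ⊕ Fin m) F (Fin n → F), IsFrame q D b := by
  let e := Module.finBasisOfFinrankEq F (D 0) (hP.finrank_eq 0)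
  obtain ⟨b, hb, -⟩ := exists_frame_of hF hP (a := fun i => (e i : Fin n → F)) (fun i => (e i).2)
    (e.linearIndependent.map' (D 0).subtype (Submodule.ker_subtype _))
  exact ⟨b, hb⟩

/-- The isometry between two frames. -/
theorem exists_GU_of_frames {D D' : Fin 2 → Submodule F (Fin n → F)} (hF : Fintype.card F = q ^ 2)
    (hP : IsPair q m D) (hP' : IsPair q m D') {b b' : Basis (Fin m ⊕ Fin m) F (Fin n → F)}
    (hb : IsFrame q D b) (hb' : IsFrame q D' b') :
    ∃ g ∈ GU n F q, (∀ i, (g : Matrix (Fin n) (Fin n) F) *ᵥ b i = b' i) ∧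
      (∀ i, (D i).map (Matrix.toLin' (g : Matrix (Fin n) (Fin n) F)) = D' i) ∧
      (g : Matrix (Fin n) (Fin n) F).det = b.det b' := by
  classical
  let e : (Fin n → F) ≃ₗ[F] (Fin n → F) := b.equiv b' (Equiv.refl _)
  have he : ∀ i, e (b i) = b' i := fun i => by simp [e, Basis.equiv_apply]
  set M : Matrix (Fin n) (Fin n) F := LinearMap.toMatrix' (e : (Fin n → F) →ₗ[F] (Fin n → F)) with hM
  have hMl : Matrix.toLin' M = (e : (Fin n → F) →ₗ[F] (Fin n → F)) := Matrix.toLin'_toMatrix' _
  have happ : ∀ v, M *ᵥ v = e v := fun v => by rw [← Matrix.toLin'_apply, hMl]; rfl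
  have hdet : IsUnit M.det := by
    rw [hM, LinearMap.det_toMatrix']
    exact e.isUnit_det'
  refine ⟨Matrix.GeneralLinearGroup.mk'' M hdet, mem_GU.2 fun u v => ?_, fun i => ?_, fun i => ?_, ?_⟩
  · show hermForm n F q (M *ᵥ u) (M *ᵥ v) = hermForm n F q u v
    rw [happ, happ]
    conv_lhs => rw [← b.sum_repr u, ← b.sum_repr v]
    conv_rhs => rw [← b.sum_repr u, ← b.sum_repr v]
    simp only [map_sum, map_smul, he]
    exact (herm_sum_sum hF (hb.gram hF hP hP' hb') _ _).symm
  · show M *ᵥ b i = b' i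
    rw [happ, he]
  · show (D i).map (Matrix.toLin' M) = D' i
    rw [hMl]
    refine Submodule.eq_of_le_of_finrank_eq ?_ (by
      rw [← LinearEquiv.finrank_map_eq e (D i) |>.symm.trans rfl, hP.finrank_eq, hP'.finrank_eq])
    rintro _ ⟨v, hv, rfl⟩
    rw [LinearEquiv.coe_coe, ← b.sum_repr v, map_sum]
    refine Submodule.sum_mem _ fun j _ => ?_
    rw [map_smul, he]
    have hvz : ∀ k : Fin m, (i = 0 → b.repr v (Sum.inr k) = 0) ∧ (i = 1 → b.repr v (Sum.inl k) = 0) := by
      intro k
      constructor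
      · rintro rfl
        have h := congrArg (fun x => hermForm n F q x (b (Sum.inl k))) (b.sum_repr v)
        simp only [Fintype.sum_sum_type, herm_add_left, herm_sum_left, herm_smul_left, hb.dual' hF,
          hP.sing 0 _ (hb.left _) _ (hb.left _), hP.sing 0 _ hv _ (hb.left _), mul_zero, Finset.sum_const_zero,
          zero_add, mul_ite, mul_one, Finset.sum_ite_eq', Finset.mem_univ, if_true] at h
        exact h
      · rintro rfl
        have h := congrArg (fun x => hermForm n F q x (b (Sum.inr k))) (b.sum_repr v)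
        simp only [Fintype.sum_sum_type, herm_add_left, herm_sum_left, herm_smul_left, hb.dual,
          hP.sing 1 _ (hb.right _) _ (hb.right _), hP.sing 1 _ hv _ (hb.right _), mul_zero, Finset.sum_const_zero,
          add_zero, mul_ite, mul_one, Finset.sum_ite_eq', Finset.mem_univ, if_true] at h
        exact h
    fin_cases i
    · rcases j with k | k
      · exact Submodule.smul_mem _ _ (hb'.left k)
      · rw [(hvz k).1 rfl, zero_smul]; exact zero_mem _
    · rcases j with k | k
      · rw [(hvz k).2 rfl, zero_smul]; exact zero_mem _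
      · exact Submodule.smul_mem _ _ (hb'.right k)
  · show M.det = _
    rw [hM, LinearMap.det_toMatrix']
    have h := b.det_comp (e : (Fin n → F) →ₗ[F] (Fin n → F)) b
    rw [b.det_self, mul_one] at h
    rw [← h]
    congr 1
    funext i
    exact (he i)

/-- The determinant-one isometries are transitive on pairs. -/
theorem exists_SU_map {D D' : Fin 2 → Submodule F (Fin n → F)} (hF : Fintype.card F = q ^ 2) (hm : 0 < m)
    (hP : IsPair q m D) (hP' : IsPair q m D') :
    ∃ g ∈ GU n F q ⊓ Cfsg.Geo.specialLinear (Fin n) F,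
      ∀ i, (D i).map (Matrix.toLin' (g : Matrix (Fin n) (Fin n) F)) = D' i := by
  classical
  obtain ⟨b, hb⟩ := exists_frame hF hP
  obtain ⟨b', hb'⟩ := exists_frame hF hP'
  obtain ⟨g, hg, -, -, hgd⟩ := exists_GU_of_frames hF hP hP' hb hb'
  have hq := two_le_q hF
  set c : F := b.det b' with hc
  have hc1 : c ^ (q + 1) = 1 := by rw [← hgd]; exact det_pow_succ_eq_one hF hg
  have hc0 : c ≠ 0 := fun h => by rw [h, zero_pow (Nat.succ_ne_zero q)] at hc1; exact zero_ne_one hc1
  obtain ⟨t, ht⟩ : ∃ t : Fˣ, t ^ (q - 1) = Units.mk0 c hc0 := by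
    have hu : (Units.mk0 c hc0) ^ (q + 1) = 1 := Units.ext (by simpa using hc1)
    obtain ⟨ζ, hζ⟩ := IsCyclic.exists_generator (α := Fˣ)
    obtain ⟨j, hj⟩ := (Submonoid.mem_powers_iff _ _).1 (mem_powers_iff_mem_zpowers.2 (hζ (Units.mk0 c hc0)))
    rw [← hj, ← pow_mul, ← orderOf_dvd_iff_pow_eq_one, orderOf_eq_card_of_forall_mem_zpowers hζ,
      card_units_eq hF, mul_comm j (q + 1), mul_comm (q - 1) (q + 1)] at hu
    obtain ⟨i, rfl⟩ := Nat.dvd_of_mul_dvd_mul_left (by omega) hu
    exact ⟨ζ ^ i, by rw [← pow_mul, mul_comm, hj]⟩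
  set i₀ : Fin m := ⟨0, hm⟩
  set w : Fin m ⊕ Fin m → Fˣ :=
    Sum.elim (Function.update 1 i₀ t) (Function.update 1 i₀ (t ^ q)⁻¹) with hw
  have hb'' : IsFrame q D' (b'.unitsSMul w) := by
    refine ⟨fun i => ?_, fun i => ?_, fun i j => ?_⟩
    · rw [Basis.unitsSMul_apply]; exact Submodule.smul_mem _ _ (hb'.left i)
    · rw [Basis.unitsSMul_apply]; exact Submodule.smul_mem _ _ (hb'.right i)
    · rw [Basis.unitsSMul_apply, Basis.unitsSMul_apply, Units.smul_def, Units.smul_def, herm_smul_left,
        herm_smul_right, hb'.dual]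
      by_cases hij : i = j
      · subst hij
        rw [if_pos rfl, mul_one]
        by_cases hi : i = i₀
        · subst hi
          simp only [hw, Sum.elim_inl, Sum.elim_inr, Function.update_self, Units.val_inv_eq_inv_val,
            Units.val_pow_eq_pow_val]
          rw [inv_pow, pow_q_q hF]
          exact mul_inv_cancel₀ (Units.ne_zero t)
        · simp [hw, hi]
      · simp [hij]
  obtain ⟨g', hg', -, hmap, hdet⟩ := exists_GU_of_frames hF hP hP' hb hb''
  refine ⟨g', Subgroup.mem_inf.2 ⟨hg', ?_⟩, hmap⟩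
  rw [Cfsg.Geo.specialLinear, MonoidHom.mem_ker]
  refine Units.ext ?_
  show (g' : Matrix (Fin n) (Fin n) F).det = 1
  rw [hdet, show (⇑(b'.unitsSMul w)) = fun i => (w i : F) • b' i from funext fun i => by
      rw [Basis.unitsSMul_apply]; rfl,
    AlternatingMap.map_smul_univ, smul_eq_mul, ← hc, Fintype.prod_sum_type, ← Units.coe_prod, ← Units.coe_prod]
  have e1 : ∏ i, w (Sum.inl i) = t := by
    simp only [hw, Sum.elim_inl]
    rw [Finset.prod_update_of_mem (Finset.mem_univ _)]; simp
  have e2 : ∏ i, w (Sum.inr i) = (t ^ q)⁻¹ := by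
    simp only [hw, Sum.elim_inr]
    rw [Finset.prod_update_of_mem (Finset.mem_univ _)]; simp
  have hc' : c = ((t ^ (q - 1) : Fˣ) : F) := by rw [ht]; rfl
  rw [e1, e2, hc', ← Units.val_mul, ← Units.val_mul, mul_right_comm, ← pow_succ',
    show q - 1 + 1 = q by omega, mul_inv_cancel, Units.val_one]

/-- An isometry preserving both members of a pair has fixed spaces of the same dimension in the two members. -/
theorem finrank_fix_le {D : Fin 2 → Submodule F (Fin n → F)} (hF : Fintype.card F = q ^ 2) (hP : IsPair q m D)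
    {h : GL (Fin n) F} (hh : h ∈ GU n F q) (h1 : ∀ v ∈ D 1, (h : Matrix (Fin n) (Fin n) F) *ᵥ v ∈ D 1) :
    finrank F (LinearMap.ker (Matrix.toLin' (h : Matrix (Fin n) (Fin n) F) - 1) ⊓ D 0 : Submodule F (Fin n → F)) ≤
      finrank F (LinearMap.ker (Matrix.toLin' (h : Matrix (Fin n) (Fin n) F) - 1) ⊓ D 1 : Submodule F (Fin n → F)) := by
  set T := Matrix.toLin' (h : Matrix (Fin n) (Fin n) F) - 1 with hT
  set R := (D 1).map T with hR
  set U := LinearMap.ker T ⊓ D 0 with hU
  set K := LinearMap.ker T ⊓ D 1 with hK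
  have hUperp : U ⊔ D 1 ≤ perp q R := by
    refine sup_le ?_ ?_
    · intro u hu r hr
      obtain ⟨v, hv, rfl⟩ := Submodule.mem_map.1 hr
      have huf : (h : Matrix (Fin n) (Fin n) F) *ᵥ u = u := by
        have := (Submodule.mem_inf.1 hu).1
        rwa [LinearMap.mem_ker, hT, LinearMap.sub_apply, Matrix.toLin'_apply, Module.End.one_apply,
          sub_eq_zero] at this
      rw [hT, LinearMap.sub_apply, Matrix.toLin'_apply, Module.End.one_apply, herm_sub_right hF]
      nth_rewrite 1 [← huf]
      rw [mem_GU.1 hh, sub_self]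
    · intro u hu r hr
      obtain ⟨v, hv, rfl⟩ := Submodule.mem_map.1 hr
      refine hP.sing 1 u hu _ ?_
      rw [hT, LinearMap.sub_apply, Matrix.toLin'_apply, Module.End.one_apply]
      exact Submodule.sub_mem _ (h1 v hv) hv
  have hd1 := Submodule.finrank_sup_add_finrank_inf_eq U (D 1)
  have hbot : U ⊓ D 1 = ⊥ := le_bot_iff.1 (le_trans (inf_le_inf_right _ inf_le_right) hP.compl.inf_eq_bot.le)
  rw [hbot, finrank_bot, add_zero, hP.finrank_eq] at hd1
  have hd2 := Submodule.finrank_mono hUperp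
  have hd3 := finrank_perp_add hF R
  have hd4 := LinearMap.finrank_range_add_finrank_ker (T.domRestrict (D 1))
  rw [hP.finrank_eq, LinearMap.range_domRestrict, ← hR, LinearMap.ker_domRestrict,
    LinearEquiv.finrank_eq (Submodule.equivMapOfInjective _ (D 1).injective_subtype _),
    Submodule.map_comap_subtype, inf_comm, ← hK] at hd4
  have := hP.two_mul
  omega

/-- The fixed space of an isometry in the stabiliser of a pair: even, or small. -/
theorem fix_alternative {D : Fin 2 → Submodule F (Fin n → F)} (hF : Fintype.card F = q ^ 2) (hP : IsPair q m D)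
    {h : GL (Fin n) F} (hh : h ∈ GU n F q) (hs : h ∈ Cfsg.Geo.decompositionStabilizer D) :
    Even (finrank F (LinearMap.ker (Matrix.toLin' (h : Matrix (Fin n) (Fin n) F) - 1))) ∨
      (finrank F (LinearMap.ker (Matrix.toLin' (h : Matrix (Fin n) (Fin n) F) - 1)) ≤ m ∧
        (D 0).map (Matrix.toLin' (h : Matrix (Fin n) (Fin n) F)) = D 1) := by
  obtain ⟨σ, hσ⟩ := hs
  set K := LinearMap.ker (Matrix.toLin' (h : Matrix (Fin n) (Fin n) F) - 1) with hK
  have hmem : ∀ v, v ∈ K ↔ (h : Matrix (Fin n) (Fin n) F) *ᵥ v = v := fun v => by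
    rw [hK, LinearMap.mem_ker, LinearMap.sub_apply, Matrix.toLin'_apply, Module.End.one_apply, sub_eq_zero]
  rcases Fin.exists_fin_two.1 ⟨σ 0, rfl⟩ with h0 | h0
  · left
    have h1 : σ 1 = 1 := by
      rcases Fin.exists_fin_two.1 ⟨σ 1, rfl⟩ with h' | h'
      · exact absurd (σ.injective (h'.trans h0.symm)) (by decide)
      · exact h'
    have hinv : ∀ i, ∀ v ∈ D i, (h : Matrix (Fin n) (Fin n) F) *ᵥ v ∈ D i := by
      intro i v hv
      have : σ i = i := by fin_cases i <;> assumption
      have hmap := hσ i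
      rw [this] at hmap
      rw [← Matrix.toLin'_apply, ← hmap]
      exact Submodule.mem_map_of_mem hv
    have e1 := finrank_fix_le hF hP hh (hinv 1)
    have e2 := finrank_fix_le hF hP.swap hh (by simpa using hinv 0)
    simp only [Matrix.cons_val_zero, Matrix.cons_val_one, Matrix.cons_val_fin_one] at e2
    rw [← hK] at e1 e2
    have hsup : (K ⊓ D 0) ⊔ (K ⊓ D 1) = K := by
      refine le_antisymm (sup_le inf_le_left inf_le_left) fun v hv => ?_
      have hv' : v ∈ D 0 ⊔ D 1 := by rw [hP.compl.sup_eq_top]; exact Submodule.mem_top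
      obtain ⟨u, hu, u', hu', rfl⟩ := Submodule.mem_sup.1 hv'
      have e := (hmem _).1 hv
      rw [Matrix.mulVec_add] at e
      have hd : (h : Matrix (Fin n) (Fin n) F) *ᵥ u - u = u' - (h : Matrix (Fin n) (Fin n) F) *ᵥ u' := by
        rw [sub_eq_sub_iff_add_eq_add, e, add_comm]
      have hz : (h : Matrix (Fin n) (Fin n) F) *ᵥ u - u = 0 := by
        refine (Submodule.mem_bot F).1 (hP.compl.inf_eq_bot ▸ Submodule.mem_inf.2 ⟨?_, ?_⟩)
        · exact Submodule.sub_mem _ (hinv 0 u hu) hu
        · rw [hd]; exact Submodule.sub_mem _ hu' (hinv 1 u' hu')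
      refine Submodule.add_mem_sup ⟨(hmem u).2 (sub_eq_zero.1 hz), hu⟩ ⟨(hmem u').2 ?_, hu'⟩
      rw [hz] at hd
      exact (sub_eq_zero.1 hd.symm).symm
    have hd1 := Submodule.finrank_sup_add_finrank_inf_eq (K ⊓ D 0) (K ⊓ D 1)
    have hbot : (K ⊓ D 0) ⊓ (K ⊓ D 1) = ⊥ :=
      le_bot_iff.1 (le_trans (inf_le_inf inf_le_right inf_le_right) hP.compl.inf_eq_bot.le)
    rw [hsup, hbot, finrank_bot, add_zero] at hd1
    refine ⟨finrank F (K ⊓ D 0 : Submodule F (Fin n → F)), ?_⟩
    rw [hd1]
    congr 1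
    exact (le_antisymm e1 e2).symm
  · right
    have hmap : (D 0).map (Matrix.toLin' (h : Matrix (Fin n) (Fin n) F)) = D 1 := (hσ 0).trans (congrArg D h0)
    refine ⟨?_, hmap⟩
    have hbot : K ⊓ D 0 = ⊥ := by
      rw [Submodule.eq_bot_iff]
      intro v hv
      refine (Submodule.mem_bot F).1 (hP.compl.inf_eq_bot ▸ Submodule.mem_inf.2 ⟨hv.2, ?_⟩)
      rw [← hmap]
      exact ⟨v, hv.2, by rw [Matrix.toLin'_apply, (hmem v).1 hv.1]⟩
    have hd := Submodule.finrank_sup_add_finrank_inf_eq K (D 0)
    rw [hbot, finrank_bot, add_zero, hP.finrank_eq] at hd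
    have := (K ⊔ D 0).finrank_le
    rw [finrank_fintype_fun_eq_card, Fintype.card_fin] at this
    have := hP.two_mul
    omega

end CfsgLib.Classical.PrimeDerangement.UnitaryPair
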