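import Cfsg.Agent.Classical.PrimeDerangement.UnitaryPair.Blocks

/-!
Which prime orders are covered by the stabiliser of a pair of complementary totally singular subspaces.
-/

set_option autoImplicit false
set_option linter.unusedSectionVars false

namespace CfsgLib.Classical.PrimeDerangement.UnitaryPair

open Cfsg Matrix Module CfsgLib.Unitary

theorem prod_unitary_even (q m : ℕ) :
    ∏ i ∈ Finset.range (2 * m), (if Even i then q ^ (i + 1) + 1 else q ^ (i + 1) - 1) =
      (∏ j ∈ Finset.range m, (q ^ (2 * j + 1) + 1)) * ∏ j ∈ Finset.range m, ((q ^ 2) ^ (j + 1) - 1) := by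
  induction m with
  | zero => simp
  | succ m ih =>
    rw [show 2 * (m + 1) = 2 * m + 1 + 1 by ring, Finset.prod_range_succ, Finset.prod_range_succ, ih,
      if_pos (even_two_mul m), if_neg (by simp [parity_simps]), Finset.prod_range_succ, Finset.prod_range_succ,
      ← pow_mul q 2 (m + 1), show 2 * (m + 1) = 2 * m + 1 + 1 by ring]
    ring

theorem prod_gl_eq (Q m : ℕ) :
    ∃ M, ∏ i : Fin m, (Q ^ m - Q ^ (i : ℕ)) = Q ^ M * ∏ j ∈ Finset.range m, (Q ^ (j + 1) - 1) := by
  refine ⟨∑ j ∈ Finset.range m, (m - 1 - j), ?_⟩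
  rw [Fin.prod_univ_eq_prod_range fun i => Q ^ m - Q ^ i, ← Finset.prod_range_reflect, ← Finset.prod_pow_eq_pow_sum,
    ← Finset.prod_mul_distrib]
  refine Finset.prod_congr rfl fun j hj => ?_
  rw [Finset.mem_range] at hj
  rw [Nat.mul_sub, mul_one, ← pow_add, show m - 1 - j + (j + 1) = m by omega]

/-- A minimal odd exponent `e` with `r ∣ q ^ e + 1` exists when `r` divides the index. -/
theorem exists_odd_exponent {q m r : ℕ} (hr : r.Prime) (hrq : ¬ r ∣ q) (hq : 2 ≤ q) {N M : ℕ}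
    (h : r * ((q ^ 2) ^ M * ∏ j ∈ Finset.range m, ((q ^ 2) ^ (j + 1) - 1)) ∣
      q ^ N * ((∏ j ∈ Finset.range m, (q ^ (2 * j + 1) + 1)) * ∏ j ∈ Finset.range m, ((q ^ 2) ^ (j + 1) - 1))) :
    ∃ e, Odd e ∧ e < 2 * m ∧ r ∣ q ^ e + 1 ∧ ∀ j, Odd j → j < e → ¬ r ∣ q ^ j + 1 := by
  classical
  set B := ∏ j ∈ Finset.range m, ((q ^ 2) ^ (j + 1) - 1) with hB
  have hB0 : 0 < B := Finset.prod_pos fun j _ => by
    have : 2 ≤ (q ^ 2) ^ (j + 1) :=
      le_trans hq (le_trans (Nat.le_self_pow two_ne_zero q) (Nat.le_self_pow (Nat.succ_ne_zero j) _))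
    omega
  have h1 : r * B ∣ (q ^ N * ∏ j ∈ Finset.range m, (q ^ (2 * j + 1) + 1)) * B := by
    rw [mul_assoc]
    exact dvd_trans (mul_dvd_mul_left r (Dvd.intro_left _ rfl)) h
  have h2 := Nat.dvd_of_mul_dvd_mul_right hB0 h1
  rcases hr.dvd_mul.1 h2 with h3 | h3
  · exact absurd (hr.dvd_of_dvd_pow h3) hrq
  obtain ⟨j, hj, hd⟩ := (hr.prime.dvd_finsetProd_iff _).1 h3
  rw [Finset.mem_range] at hj
  have hex : ∃ e, Odd e ∧ r ∣ q ^ e + 1 := ⟨2 * j + 1, ⟨j, rfl⟩, hd⟩
  refine ⟨Nat.find hex, (Nat.find_spec hex).1, lt_of_le_of_lt (Nat.find_min' hex ⟨⟨j, rfl⟩, hd⟩) (by omega),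
    (Nat.find_spec hex).2, fun i hi hlt hdi => Nat.find_min hex hlt ⟨hi, hdi⟩⟩

theorem pow_ne_neg_one {F : Type*} [Field F] (h2 : (2 : F) ≠ 0) {q n : ℕ} (hn : n ≠ 0)
    (hv : padicValNat 2 (q + 1) ≤ padicValNat 2 n) {w : F} (hw : w ^ (q + 1) = 1) : w ^ n ≠ -1 := by
  intro hwn
  haveI : Fact (Nat.Prime 2) := ⟨Nat.prime_two⟩
  obtain ⟨a, ha⟩ : 2 ^ padicValNat 2 (q + 1) ∣ n :=
    dvd_trans (pow_dvd_pow 2 hv) pow_padicValNat_dvd
  obtain ⟨o, ho⟩ : 2 ^ padicValNat 2 (q + 1) ∣ q + 1 := pow_padicValNat_dvd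
  have hodd : Odd o := by
    rcases Nat.even_or_odd o with ⟨c, hc⟩ | h
    · exfalso
      refine pow_succ_padicValNat_not_dvd (p := 2) (n := q + 1) (by omega) ⟨c, ?_⟩
      rw [pow_succ]
      conv_lhs => rw [ho, hc]
      ring
    · exact h
  have h1 : w ^ (n * o) = -1 := by rw [pow_mul, hwn, hodd.neg_one_pow]
  have h3 : w ^ (n * o) = 1 := by
    rw [ha, show 2 ^ padicValNat 2 (q + 1) * a * o = (q + 1) * a by
      conv_rhs => rw [ho]
      ring, pow_mul, hw, one_pow]
  exact h2 (by linear_combination h3.symm.trans h1)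

theorem exists_pow_eq_neg_one {F : Type*} [Field F] [Fintype F] {q n : ℕ} (hF : Fintype.card F = q ^ 2) (hn : n ≠ 0)
    (h2 : (2 : F) ≠ 0) (hv : padicValNat 2 n < padicValNat 2 (q + 1)) : ∃ w : F, w ^ (q + 1) = 1 ∧ w ^ n = -1 := by
  haveI : Fact (Nat.Prime 2) := ⟨Nat.prime_two⟩
  set a := padicValNat 2 n with ha
  have hd : 2 ^ (a + 1) ∣ q + 1 := dvd_trans (pow_dvd_pow 2 hv) pow_padicValNat_dvd
  obtain ⟨ζ, hζ⟩ := exists_primitive_of_dvd (F := F) (d := 2 ^ (a + 1))
    (card_units_eq hF ▸ Dvd.dvd.mul_left hd _)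
  have hζ' : IsPrimitiveRoot (ζ : F) (2 ^ (a + 1)) := IsPrimitiveRoot.coe_units_iff.2 hζ
  refine ⟨(ζ : F), ?_, ?_⟩
  · obtain ⟨c, hc⟩ := hd
    rw [hc, pow_mul, hζ'.pow_eq_one, one_pow]
  · obtain ⟨o, ho⟩ : 2 ^ a ∣ n := pow_padicValNat_dvd
    have hodd : Odd o := by
      rcases Nat.even_or_odd o with ⟨c, hc⟩ | h
      · exfalso
        refine pow_succ_padicValNat_not_dvd (p := 2) hn ⟨c, ?_⟩
        rw [← ha, pow_succ]
        conv_lhs => rw [ho, hc]
        ring
      · exact h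
    rw [ho, pow_mul, (hζ'.pow (by positivity) (pow_succ 2 a)).eq_neg_one_of_two_right, hodd.neg_one_pow]

variable {F : Type*} [Field F] [Fintype F]

theorem covers_iff {p : ℕ} [Fact p.Prime] [CharP F p] {q : ℕ} (hF : Fintype.card F = q ^ 2) (n : ℕ) (hn : 4 ≤ n)
    (D : Fin 2 → Submodule F (Fin n → F)) (hD : Cfsg.Geo.IsMDecomposition (n / 2) D)
    (hDs : ∀ i, Cfsg.Geo.IsTotallySingularFor (Cfsg.hermForm n F q) (D i)) (r : ℕ) [Fact r.Prime]
    (hΩ : r ∣ (Cfsg.Geo.decompositionStabilizer D).relIndex (Cfsg.GU n F q ⊓ Cfsg.Geo.specialLinear (Fin n) F)) :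
    (∀ x ∈ Cfsg.GU n F q ⊓ Cfsg.Geo.specialLinear (Fin n) F,
      (∃ z : F, ((x ^ r : GL (Fin n) F) : Matrix (Fin n) (Fin n) F) = z • (1 : Matrix (Fin n) (Fin n) F)) →
      (∀ z : F, (x : Matrix (Fin n) (Fin n) F) ≠ z • (1 : Matrix (Fin n) (Fin n) F)) →
      ∃ g ∈ Cfsg.GU n F q ⊓ Cfsg.Geo.specialLinear (Fin n) F, g⁻¹ * x * g ∈ Cfsg.Geo.decompositionStabilizer D) ↔
    (r = 2 ∧ Odd q ∧ padicValNat 2 (q + 1) ≤ padicValNat 2 n) := by
  classical
  have hr : r.Prime := Fact.out
  have hp : p.Prime := Fact.out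
  obtain ⟨m, hm⟩ : ∃ m, n / 2 = m := ⟨_, rfl⟩
  rw [hm] at hD
  have hP : IsPair q m D := IsPair.of_decomp hD hDs
  have h2m := hP.two_mul
  have hm0 : 0 < m := by omega
  have hq := two_le_q hF
  obtain ⟨p', c, hp', hchar, -, hqc⟩ := exists_char hF
  obtain rfl : p = p' := CharP.eq F ‹CharP F p› hchar
  have hc : c ≠ 0 := fun h => by rw [h, pow_zero] at hqc; omega
  have hqp : p ∣ q := hqc ▸ dvd_pow_self p hc
  have hne : ∀ (x : GL (Fin n) F) (z : F),
      (x : Matrix (Fin n) (Fin n) F) = z • (1 : Matrix (Fin n) (Fin n) F) → ∀ v, (x : Matrix (Fin n) (Fin n) F) *ᵥ v = z • v :=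
    fun x z h v => by rw [h, Matrix.smul_mulVec, Matrix.one_mulVec]
  have fixne : ∀ (x : GL (Fin n) F), finrank F (fixSub (x : Matrix (Fin n) (Fin n) F)) < n →
      0 < finrank F (fixSub (x : Matrix (Fin n) (Fin n) F)) →
      ∀ z : F, (x : Matrix (Fin n) (Fin n) F) ≠ z • (1 : Matrix (Fin n) (Fin n) F) := by
    intro x hlt hpos z hz
    obtain ⟨v, hv, hv0⟩ := Submodule.exists_mem_ne_zero_of_ne_bot (p := fixSub (x : Matrix (Fin n) (Fin n) F))
      (fun h => by rw [h, finrank_bot] at hpos; omega)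
    have h1 := hne x z hz v
    rw [mem_fixSub.1 hv] at h1
    have hz1 : z = 1 := smul_left_injective F hv0 (show z • v = (1 : F) • v by rw [one_smul]; exact h1.symm)
    have htop : fixSub (x : Matrix (Fin n) (Fin n) F) = ⊤ := eq_top_iff.2 fun w _ =>
      mem_fixSub.2 (by rw [hne x z hz w, hz1, one_smul])
    rw [htop, finrank_top, finrank_fintype_fun_eq_card, Fintype.card_fin] at hlt
    omega
  constructor
  · intro hall
    by_contra hcon
    have refute : ∀ x ∈ GU n F q ⊓ Cfsg.Geo.specialLinear (Fin n) F, x ^ r = 1 →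
        Odd (finrank F (fixSub (x : Matrix (Fin n) (Fin n) F))) →
        finrank F (fixSub (x : Matrix (Fin n) (Fin n) F)) < n →
        (m < finrank F (fixSub (x : Matrix (Fin n) (Fin n) F)) ∨ Odd r) → False := by
      intro x hx hxr hodd hlt hbig
      refine not_covered_of_fix hF hP (Subgroup.mem_inf.1 hx).1 hodd
        (hbig.imp id fun h => ⟨r, h, hxr⟩) (hall x hx ⟨1, ?_⟩ (fixne x hlt hodd.pos))
      rw [hxr, Units.val_one, one_smul]
    by_cases hrp : r = p
    · obtain ⟨x, hx, hxp, hfix⟩ := exists_transvection (p := p) hF (n := n) (by omega)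
      exact refute x hx (hrp ▸ hxp) ⟨m - 1, by omega⟩ (by omega) (Or.inl (by omega))
    rcases hr.eq_two_or_odd' with rfl | hrodd
    · -- the scalar multiple of a reflection
      have hp2 : p ≠ 2 := Ne.symm hrp
      have h2 : (2 : F) ≠ 0 := fun h => hp2 (((Nat.prime_dvd_prime_iff_eq hp Nat.prime_two).1
        ((CharP.cast_eq_zero_iff F p 2).1 (by exact_mod_cast h))))
      have hqodd : Odd q := hqc ▸ (hp.eq_two_or_odd'.resolve_left hp2).pow
      have hv : padicValNat 2 n < padicValNat 2 (q + 1) := by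
        by_contra h
        exact hcon ⟨rfl, hqodd, by omega⟩
      obtain ⟨w, hw1, hwn⟩ := exists_pow_eq_neg_one hF (by omega) h2 hv
      have hneg : ((-1 : F)) ^ (q + 1) = 1 := neg_one_pow_succ hF
      have h1l : 1 + (n - 1) = n := by omega
      set s := blockGU hF h1l (diagGU (fun _ : Fin 1 => (-1 : F)) (fun _ => hneg), 1) with hs
      have hfix := finrank_fix_block hF h1l (diagGU (fun _ : Fin 1 => (-1 : F)) (fun _ => hneg)) (fun v hv => by
        funext i
        have h := congrFun hv i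
        rw [diagGU_val, Matrix.mulVec_diagonal, neg_one_mul, neg_eq_iff_add_eq_zero, ← two_mul] at h
        exact (mul_eq_zero.1 h).resolve_left h2)
      have hdet := det_block hF h1l (diagGU (fun _ : Fin 1 => (-1 : F)) (fun _ => hneg))
      rw [diagGU_val, Matrix.det_diagonal, Fin.prod_univ_one] at hdet
      rw [← hs] at hfix hdet
      set cw := diagGU (fun _ : Fin n => w) (fun _ => hw1) with hcw
      have hcwv : ((cw : GL (Fin n) F) : Matrix (Fin n) (Fin n) F) = w • (1 : Matrix (Fin n) (Fin n) F) := by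
        rw [hcw, diagGU_val, Matrix.smul_one_eq_diagonal]
      have hss : ((s : GL (Fin n) F) : Matrix (Fin n) (Fin n) F) * ((s : GL (Fin n) F) : Matrix (Fin n) (Fin n) F) = 1 := by
        rw [← Units.val_mul, ← Subgroup.coe_mul, hs, ← map_mul, Prod.mk_mul_mk, one_mul,
          show diagGU (fun _ : Fin 1 => (-1 : F)) (fun _ => hneg) * diagGU (fun _ : Fin 1 => (-1 : F)) (fun _ => hneg) = 1
            from Subtype.ext (Units.ext (by simp [Matrix.diagonal_mul_diagonal])),
          ← Prod.one_eq_mk, map_one, OneMemClass.coe_one, Units.val_one]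
      set x : GL (Fin n) F := ((cw * s : ↥(GU n F q)) : GL (Fin n) F) with hxdef
      have hxval : (x : Matrix (Fin n) (Fin n) F) = w • ((s : GL (Fin n) F) : Matrix (Fin n) (Fin n) F) := by
        rw [hxdef, Subgroup.coe_mul, Units.val_mul, hcwv, Matrix.smul_mul, one_mul]
      have hw0 : w ≠ 0 := fun h => by rw [h, zero_pow (Nat.succ_ne_zero q)] at hw1; exact zero_ne_one hw1
      have hxmem : x ∈ GU n F q ⊓ Cfsg.Geo.specialLinear (Fin n) F := by
        refine Subgroup.mem_inf.2 ⟨(cw * s).2, ?_⟩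
        rw [Cfsg.Geo.specialLinear, MonoidHom.mem_ker]
        refine Units.ext ?_
        show (x : Matrix (Fin n) (Fin n) F).det = 1
        rw [hxval, Matrix.det_smul, hdet, Fintype.card_fin, hwn]
        ring
      obtain ⟨g, hg, hmem⟩ := hall x hxmem ⟨w * w, by
        rw [Units.val_pow_eq_pow_val, sq, hxval, Matrix.smul_mul, Matrix.mul_smul, smul_smul, hss]⟩ (fun z hz => by
        refine fixne (s : GL (Fin n) F) (by omega) (by omega) (w⁻¹ * z) ?_
        rw [← smul_smul, ← hz, hxval, smul_smul, inv_mul_cancel₀ hw0, one_smul])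
      refine not_covered_of_fix hF hP s.2 (by rw [hfix]; exact ⟨m - 1, by omega⟩) (Or.inl (by omega)) ⟨g, hg, ?_⟩
      obtain ⟨σ, hσ⟩ := hmem
      refine ⟨σ, fun i => ?_⟩
      rw [← hσ i, Units.val_mul, Units.val_mul, Units.val_mul, Units.val_mul, hxval, Matrix.mul_smul, Matrix.smul_mul,
        map_smul, Submodule.map_smul _ _ _ hw0]
    · -- semisimple elements of odd order
      have hrq : ¬ r ∣ q := fun h => hrp ((Nat.prime_dvd_prime_iff_eq hr hp).1 (hr.dvd_of_dvd_pow (hqc ▸ h)))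
      set S := GU n F q ⊓ Cfsg.Geo.specialLinear (Fin n) F with hS
      set H := Cfsg.Geo.decompositionStabilizer D
      have hidx : H.relIndex S * Nat.card ↥(H ⊓ S : Subgroup (GL (Fin n) F)) = Nat.card ↥S := by
        rw [← Subgroup.inf_relIndex_right H S, ← Subgroup.relIndex_bot_left, ← Subgroup.relIndex_bot_left, mul_comm]
        exact Subgroup.relIndex_mul_relIndex _ _ _ bot_le inf_le_right
      set K := GU n F q ⊓ pairStab D with hK
      have hKdvd : Nat.card ↥K ∣ Nat.card ↥(H ⊓ S : Subgroup (GL (Fin n) F)) * (q + 1) := by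
        let δ : ↥K →* Fˣ := Matrix.GeneralLinearGroup.det.comp K.subtype
        have h1 : Nat.card ↥K = Nat.card δ.ker * Nat.card δ.range := by
          rw [Subgroup.card_eq_card_quotient_mul_card_subgroup δ.ker, mul_comm,
            Nat.card_congr (QuotientGroup.quotientKerEquivRange δ).toEquiv]
        have h2 : Nat.card δ.ker ∣ Nat.card ↥(H ⊓ S : Subgroup (GL (Fin n) F)) := by
          refine Subgroup.card_dvd_of_injective
            ({ toFun := fun g => ⟨g.1.1, pairStab_le D g.1.2.2, g.1.2.1, g.2⟩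
               map_one' := rfl
               map_mul' := fun _ _ => rfl } : δ.ker →* ↥(H ⊓ S : Subgroup (GL (Fin n) F))) ?_
          intro a b hab
          exact Subtype.ext (Subtype.ext (congrArg Subtype.val hab :))
        have h3 : Nat.card δ.range ∣ q + 1 := by
          haveI : IsCyclic δ.range := Subgroup.isCyclic _
          obtain ⟨⟨u, hu⟩, hgen⟩ := IsCyclic.exists_generator (α := δ.range)
          rw [← orderOf_eq_card_of_forall_mem_zpowers hgen, Subgroup.orderOf_mk]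
          refine orderOf_dvd_of_pow_eq_one ?_
          obtain ⟨g, rfl⟩ := hu
          exact Units.ext (by
            rw [Units.val_pow_eq_pow_val, Units.val_one]
            exact det_pow_succ_eq_one hF g.2.1)
        rw [h1]
        exact mul_dvd_mul h2 h3
      have hbig : r * Nat.card ↥K ∣ Nat.card ↥(GU n F q) := by
        have h1 : Nat.card ↥(GU n F q) = H.relIndex S * (Nat.card ↥(H ⊓ S : Subgroup (GL (Fin n) F)) * (q + 1)) := by
          rw [card_GU_eq_mul_card_SU hF (by omega), ← natCard_GU_inf_specialLinear n q, ← hS, ← hidx]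
          ring
        rw [h1]
        exact mul_dvd_mul hΩ hKdvd
      rw [hK, card_pairStab hF hP, hF, card_GU hF, ← h2m, prod_unitary_even] at hbig
      obtain ⟨M, hM⟩ := prod_gl_eq (q ^ 2) m
      rw [hM] at hbig
      obtain ⟨e, he, hem, hre, hmin⟩ := exists_odd_exponent hr hrq hq hbig
      obtain ⟨k, hk, hkle, y, hyr, hydet, hyfpf⟩ :=
        exists_fpf_block hF (fun h => by subst h; exact absurd hrodd (by decide)) he hre hmin
      have hkn : k + (n - k) = n := by omega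
      set x := blockGU hF hkn (y, 1) with hxdef
      have hfix := finrank_fix_block hF hkn y hyfpf
      refine refute (x : GL (Fin n) F) (Subgroup.mem_inf.2 ⟨x.2, ?_⟩) ?_ ?_ ?_ (Or.inr hrodd)
      · rw [Cfsg.Geo.specialLinear, MonoidHom.mem_ker]
        exact Units.ext ((det_block hF hkn y).trans hydet)
      · rw [← SubmonoidClass.coe_pow, hxdef, ← map_pow, Prod.pow_mk, hyr, one_pow, ← Prod.one_eq_mk, map_one,
          OneMemClass.coe_one]
      · rw [hfix]
        obtain ⟨a, ha⟩ := hk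
        exact ⟨m - a - 1, by omega⟩
      · rw [hfix]
        have := hk.pos
        omega
  · rintro ⟨rfl, hqodd, hv⟩ x hx ⟨z, hz⟩ -
    have h2 : (2 : F) ≠ 0 := fun h => by
      have h1 := ((Nat.prime_dvd_prime_iff_eq hp Nat.prime_two).1
        ((CharP.cast_eq_zero_iff F p 2).1 (by exact_mod_cast h)))
      subst h1
      obtain ⟨c, hc⟩ := hqodd
      obtain ⟨d, hd⟩ := hqp
      omega
    obtain ⟨hxG, hxd⟩ := Subgroup.mem_inf.1 hx
    rw [Cfsg.Geo.specialLinear, MonoidHom.mem_ker] at hxd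
    exact covered_two hF h2 hm0 hP (fun w hw => pow_ne_neg_one h2 (by omega) hv hw) hxG
      (congrArg Units.val hxd) (z := z) (by rw [← sq, ← Units.val_pow_eq_pow_val]; exact hz)

end CfsgLib.Classical.PrimeDerangement.UnitaryPair
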